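import Mathlib
import Cfsg.Agent.Lib.Mathieu.Sharp

/-!
Jordan's theorem on sharply 4-transitive groups: their degree is 4, 5, 6 or 11. The proof is
elementary: the stabiliser of two points is sharply 2-transitive on the remaining points, its
fixed-point-free elements form with 1 an abelian regular subgroup, and involutions of the setwise
stabiliser of the two points bound its order.
-/

set_option autoImplicit false

namespace CfsgLib.Mathieu.Jordan

open MulAction Finset

universe u v

variable (G : Type u) [Group G] (X : Type v) [MulAction G X]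

/-- Four points determine an element, and any four distinct points go to any four distinct points. -/
structure Sharp4 : Prop where
  uniq : ∀ {g g' : G} {w x y z : X}, w ≠ x → w ≠ y → w ≠ z → x ≠ y → x ≠ z → y ≠ z →
    g • w = g' • w → g • x = g' • x → g • y = g' • y → g • z = g' • z → g = g'
  exist : ∀ {w x y z w' x' y' z' : X}, w ≠ x → w ≠ y → w ≠ z → x ≠ y → x ≠ z → y ≠ z →
    w' ≠ x' → w' ≠ y' → w' ≠ z' → x' ≠ y' → x' ≠ z' → y' ≠ z' →
    ∃ g : G, g • w = w' ∧ g • x = x' ∧ g • y = y' ∧ g • z = z'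

variable {G X}

theorem sharp4_of_sharply [IsMultiplyPretransitive G X 4]
    (hsharp : ∀ x : Fin 4 ↪ X, stabilizer G x = ⊥) : Sharp4 G X := by
  have inj : ∀ {w x y z : X}, w ≠ x → w ≠ y → w ≠ z → x ≠ y → x ≠ z → y ≠ z →
      Function.Injective ![w, x, y, z] := by
    intro w x y z h1 h2 h3 h4 h5 h6 i j h
    fin_cases i <;> fin_cases j <;>
      simp_all [h1.symm, h2.symm, h3.symm, h4.symm, h5.symm, h6.symm]
  constructor
  · intro g g' w x y z h1 h2 h3 h4 h5 h6 e1 e2 e3 e4
    have hm : g'⁻¹ * g ∈ stabilizer G (⟨![w, x, y, z], inj h1 h2 h3 h4 h5 h6⟩ : Fin 4 ↪ X) := by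
      rw [mem_stabilizer_iff]
      ext i
      fin_cases i <;> simp [Function.Embedding.smul_apply, mul_smul, e1, e2, e3, e4]
    rw [hsharp, Subgroup.mem_bot] at hm
    exact (inv_mul_eq_one.1 hm).symm
  · intro w x y z w' x' y' z' h1 h2 h3 h4 h5 h6 k1 k2 k3 k4 k5 k6
    obtain ⟨g, hg⟩ := exists_smul_eq G (⟨![w, x, y, z], inj h1 h2 h3 h4 h5 h6⟩ : Fin 4 ↪ X)
      ⟨![w', x', y', z'], inj k1 k2 k3 k4 k5 k6⟩
    exact ⟨g, congrArg (fun e : Fin 4 ↪ X => e 0) hg, congrArg (fun e : Fin 4 ↪ X => e 1) hg,
      congrArg (fun e : Fin 4 ↪ X => e 2) hg, congrArg (fun e : Fin 4 ↪ X => e 3) hg⟩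

section Setup

variable (a b : X)

/-- `g` fixes the two base points. -/
def InH (g : G) : Prop := g • a = a ∧ g • b = b

/-- `y` is one of the remaining points. -/
def InY (y : X) : Prop := y ≠ a ∧ y ≠ b

variable {a b}

theorem InH.mul {g h : G} (hg : InH a b g) (hh : InH a b h) : InH a b (g * h) :=
  ⟨by rw [mul_smul, hh.1, hg.1], by rw [mul_smul, hh.2, hg.2]⟩

theorem InH.inv {g : G} (hg : InH a b g) : InH a b g⁻¹ :=
  ⟨inv_smul_eq_iff.2 hg.1.symm, inv_smul_eq_iff.2 hg.2.symm⟩

theorem InH.one : InH a b (1 : G) := ⟨one_smul .., one_smul ..⟩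

theorem InH.map {g : G} (hg : InH a b g) {y : X} (hy : InY a b y) : InY a b (g • y) :=
  ⟨fun e => hy.1 (smul_left_cancel g (e.trans hg.1.symm)),
    fun e => hy.2 (smul_left_cancel g (e.trans hg.2.symm))⟩

variable (hS : Sharp4 G X) (hab : a ≠ b)
include hS hab

theorem eq_of_two {g g' : G} (hg : InH a b g) (hg' : InH a b g') {x y : X} (hx : InY a b x)
    (hy : InY a b y) (hxy : x ≠ y) (e1 : g • x = g' • x) (e2 : g • y = g' • y) : g = g' :=
  hS.uniq hab hx.1.symm hy.1.symm hx.2.symm hy.2.symm hxy (hg.1.trans hg'.1.symm)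
    (hg.2.trans hg'.2.symm) e1 e2

theorem exists_two {x y x' y' : X} (hx : InY a b x) (hy : InY a b y) (hxy : x ≠ y)
    (hx' : InY a b x') (hy' : InY a b y') (hxy' : x' ≠ y') :
    ∃ g : G, InH a b g ∧ g • x = x' ∧ g • y = y' := by
  obtain ⟨g, h1, h2, h3, h4⟩ := hS.exist hab hx.1.symm hy.1.symm hx.2.symm hy.2.symm hxy hab
    hx'.1.symm hy'.1.symm hx'.2.symm hy'.2.symm hxy'
  exact ⟨g, ⟨h1, h2⟩, h3, h4⟩

theorem fixed_unique {g : G} (hg : InH a b g) (hg1 : g ≠ 1) {x y : X} (hx : InY a b x)
    (hy : InY a b y) (hgx : g • x = x) (hgy : g • y = y) : x = y := by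
  by_contra hxy
  exact hg1 (eq_of_two hS hab hg InH.one hx hy hxy (by rw [hgx, one_smul]) (by rw [hgy, one_smul]))

theorem exists_swap {x y : X} (hx : InY a b x) (hy : InY a b y) (hxy : x ≠ y) :
    ∃ g : G, InH a b g ∧ g * g = 1 ∧ g ≠ 1 ∧ g • x = y ∧ g • y = x := by
  obtain ⟨g, hg, h1, h2⟩ := exists_two hS hab hx hy hxy hy hx hxy.symm
  refine ⟨g, hg, eq_of_two hS hab (hg.mul hg) InH.one hx hy hxy ?_ ?_, ?_, h1, h2⟩
  · rw [mul_smul, h1, h2, one_smul]
  · rw [mul_smul, h2, h1, one_smul]
  · rintro rfl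
    exact hxy (by rwa [one_smul] at h1)

end Setup

section Count

open scoped Classical

variable [Fintype G] [Fintype X] {a b : X}

variable (G) in
/-- The involutions fixing the two base points. -/
noncomputable def invs (a b : X) : Finset G :=
  univ.filter fun g => InH a b g ∧ g * g = 1 ∧ g ≠ 1

variable (G) in
/-- The identity and the elements without fixed points among the remaining points. -/
noncomputable def transl (a b : X) : Finset G :=
  univ.filter fun g => InH a b g ∧ (g = 1 ∨ ∀ y, InY a b y → g • y ≠ y)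

/-- The remaining points. -/
noncomputable def rest (a b : X) : Finset X := univ.filter fun y => InY a b y

theorem mem_rest {y : X} : y ∈ rest a b ↔ InY a b y := by simp [rest]

omit [Fintype X] in
theorem mem_invs {g : G} : g ∈ invs G a b ↔ InH a b g ∧ g * g = 1 ∧ g ≠ 1 := by simp [invs]

theorem mem_transl {g : G} :
    g ∈ transl G a b ↔ InH a b g ∧ (g = 1 ∨ ∀ y, InY a b y → g • y ≠ y) := by simp [transl]

variable (hS : Sharp4 G X) (hab : a ≠ b)
include hab

theorem card_rest : (rest a b).card = Fintype.card X - 2 := by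
  rw [show rest a b = ({a, b} : Finset X)ᶜ by ext y; rw [mem_rest]; simp [InY], card_compl, card_pair hab]

include hS

theorem card_fixedIn {x y : X} (hx : InY a b x) (hy : InY a b y) (hxy : x ≠ y) :
    (univ.filter fun g : G => InH a b g ∧ g • x = x).card = (rest a b).card - 1 := by
  rw [← card_erase_of_mem (mem_rest.2 hx)]
  refine card_bij (fun g _ => g • y) ?_ ?_ ?_
  · intro g hg
    obtain ⟨hg, hgx⟩ := (mem_filter.1 hg).2
    exact mem_erase.2 ⟨fun e => hxy (smul_left_cancel g (hgx.trans e.symm)), mem_rest.2 (hg.map hy)⟩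
  · intro g hg g' hg' e
    obtain ⟨hg, hgx⟩ := (mem_filter.1 hg).2
    obtain ⟨hg', hgx'⟩ := (mem_filter.1 hg').2
    exact eq_of_two hS hab hg hg' hx hy hxy (hgx.trans hgx'.symm) e
  · intro z hz
    obtain ⟨hzx, hz⟩ := mem_erase.1 hz
    obtain ⟨g, hg, h1, h2⟩ := exists_two hS hab hx hy hxy hx (mem_rest.1 hz) hzx.symm
    exact ⟨g, mem_filter.2 ⟨mem_univ _, hg, h1⟩, h2⟩

theorem card_transl (h3 : 2 ≤ (rest a b).card) : (transl G a b).card = (rest a b).card := by
  obtain ⟨x₀, hx₀, y₀, hy₀, hxy₀⟩ := one_lt_card.1 h3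
  rw [mem_rest] at hx₀ hy₀
  set q := (rest a b).card with hq
  have hH : (univ.filter fun g : G => InH a b g).card = q * q - q := by
    rw [hq, ← offDiag_card]
    refine card_bij (fun g _ => (g • x₀, g • y₀)) ?_ ?_ ?_
    · intro g hg
      have hg := (mem_filter.1 hg).2
      exact mem_offDiag.2 ⟨mem_rest.2 (hg.map hx₀), mem_rest.2 (hg.map hy₀),
        fun e => hxy₀ (smul_left_cancel g e)⟩
    · intro g hg g' hg' e
      obtain ⟨e1, e2⟩ := Prod.ext_iff.1 e
      exact eq_of_two hS hab (mem_filter.1 hg).2 (mem_filter.1 hg').2 hx₀ hy₀ hxy₀ e1 e2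
    · rintro ⟨x, y⟩ h
      obtain ⟨hx, hy, hxy⟩ := mem_offDiag.1 h
      obtain ⟨g, hg, h1, h2⟩ := exists_two hS hab hx₀ hy₀ hxy₀ (mem_rest.1 hx) (mem_rest.1 hy) hxy
      exact ⟨g, mem_filter.2 ⟨mem_univ _, hg⟩, Prod.ext h1 h2⟩
  let F : X → Finset G := fun x => univ.filter fun g => InH a b g ∧ g ≠ 1 ∧ g • x = x
  have hF : ∀ x ∈ rest a b, (F x).card = q - 2 := by
    intro x hx
    obtain ⟨y, hy, hyx⟩ := exists_mem_ne h3 x
    have h := card_fixedIn hS hab (mem_rest.1 hx) (mem_rest.1 hy) hyx.symm
    have he : F x = (univ.filter fun g : G => InH a b g ∧ g • x = x).erase 1 := by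
      ext g
      simp only [F, mem_filter, mem_univ, true_and, mem_erase]
      tauto
    rw [he, card_erase_of_mem (by simp [InH.one]), h]
    omega
  have hsplit : (univ.filter fun g : G => InH a b g) = transl G a b ∪ (rest a b).biUnion F := by
    ext g
    simp only [mem_filter, mem_univ, true_and, mem_union, mem_transl, mem_biUnion, F, mem_rest]
    constructor
    · intro hg
      by_cases h : g = 1 ∨ ∀ y, InY a b y → g • y ≠ y
      · exact Or.inl ⟨hg, h⟩
      · rw [not_or] at h
        push Not at h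
        obtain ⟨h1, y, hy, hgy⟩ := h
        exact Or.inr ⟨y, hy, hg, h1, hgy⟩
    · rintro (h | ⟨y, -, h, -⟩) <;> first | exact h.1 | exact h
  have hdisj : Disjoint (transl G a b) ((rest a b).biUnion F) := by
    rw [disjoint_left]
    intro g hg hg'
    obtain ⟨x, hx, hgx⟩ := mem_biUnion.1 hg'
    simp only [F, mem_filter, mem_univ, true_and] at hgx
    rcases (mem_transl.1 hg).2 with h | h
    · exact hgx.2.1 h
    · exact h x (mem_rest.1 hx) hgx.2.2
  rw [hsplit, card_union_of_disjoint hdisj, card_biUnion, sum_congr rfl hF, sum_const, ← hq,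
    smul_eq_mul, Nat.mul_sub] at hH
  · have : q * 2 ≤ q * q := Nat.mul_le_mul_left q h3
    omega
  · intro x hx y hy hxy
    simp only [disjoint_left, F, mem_filter, mem_univ, true_and]
    intro g hg hg'
    exact hxy (fixed_unique hS hab hg.1 hg.2.1 (mem_rest.1 hx) (mem_rest.1 hy) hg.2.2 hg'.2.2)

omit hS hab in
theorem fixed_parity {g : G} (h2 : g * g = 1) :
    Fintype.card X % 2 = (univ.filter fun x : X => g • x = x).card % 2 := by
  have := Equiv.Perm.card_fixedPoints_modEq (f := ((g • ·) : Function.End X)) (p := 2) (n := 1)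
    (funext fun x => by show g • g • x = x; rw [← mul_smul, h2, one_smul])
  rw [show (univ.filter fun x : X => g • x = x).card
    = Fintype.card (Function.fixedPoints fun x : X => g • x) from ?_]
  · exact this
  · rw [← Set.toFinset_card]
    congr 1
    ext x
    simp [Function.IsFixedPt]

theorem invs_fixed_card {g : G} (hg : g ∈ invs G a b) :
    ((rest a b).filter fun x => g • x = x).card = (rest a b).card % 2 := by
  obtain ⟨hH, h2, h1⟩ := mem_invs.1 hg
  have hle : ((rest a b).filter fun x => g • x = x).card ≤ 1 := by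
    rw [card_le_one]
    intro x hx y hy
    rw [mem_filter, mem_rest] at hx hy
    exact fixed_unique hS hab hH h1 hx.1 hy.1 hx.2 hy.2
  have he : (univ.filter fun x : X => g • x = x) =
      ({a, b} : Finset X) ∪ (rest a b).filter fun x => g • x = x := by
    ext x
    by_cases hxa : x = a
    · simp [hxa, hH.1]
    by_cases hxb : x = b
    · simp [hxb, hH.2]
    simp [mem_rest, InY, hxa, hxb]
  have hd : Disjoint ({a, b} : Finset X) ((rest a b).filter fun x => g • x = x) := by
    simp [disjoint_left, mem_rest, InY]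
  have hp := fixed_parity (X := X) h2
  rw [he, card_union_of_disjoint hd, card_pair hab] at hp
  have hr := card_rest (a := a) (b := b) hab
  have : 2 ≤ Fintype.card X := by
    rw [← card_pair hab]; exact card_le_univ _
  omega

theorem card_invs_mul : (invs G a b).card * ((rest a b).card - (rest a b).card % 2) =
    (rest a b).card * (rest a b).card - (rest a b).card := by
  rw [← offDiag_card]
  let P : G → Finset (X × X) := fun g =>
    (((rest a b).filter fun x => g • x ≠ x)).image fun x => (x, g • x)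
  have hP : ∀ g ∈ invs G a b, (P g).card = (rest a b).card - (rest a b).card % 2 := by
    intro g hg
    have h := card_filter_add_card_filter_not (s := rest a b) (fun x => g • x = x)
    rw [invs_fixed_card hS hab hg] at h
    simp only [P, ne_eq]
    rw [card_image_of_injective _ fun x y e => (Prod.ext_iff.1 e).1]
    omega
  have hu : (invs G a b).biUnion P = (rest a b).offDiag := by
    ext ⟨x, y⟩
    simp only [P, mem_biUnion, mem_image, mem_filter, Prod.mk.injEq, mem_offDiag]
    constructor
    · rintro ⟨g, hg, z, ⟨hz, hne⟩, rfl, rfl⟩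
      exact ⟨hz, mem_rest.2 ((mem_invs.1 hg).1.map (mem_rest.1 hz)), fun e => hne e.symm⟩
    · rintro ⟨hx, hy, hxy⟩
      obtain ⟨g, hg, h2, h1, hgx, -⟩ := exists_swap hS hab (mem_rest.1 hx) (mem_rest.1 hy) hxy
      exact ⟨g, mem_invs.2 ⟨hg, h2, h1⟩, x, ⟨hx, by rw [hgx]; exact hxy.symm⟩, rfl, hgx⟩
  rw [← hu, card_biUnion, sum_congr rfl hP, sum_const, smul_eq_mul]
  intro g hg g' hg' hne
  simp only [P, disjoint_left, mem_image, mem_filter]
  rintro _ ⟨x, ⟨hx, hgx⟩, rfl⟩ ⟨y, ⟨-, -⟩, e⟩
  obtain ⟨e1, e2⟩ := Prod.ext_iff.1 e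
  dsimp only at e1 e2
  subst e1
  refine hne (eq_of_two hS hab (mem_invs.1 hg).1 (mem_invs.1 hg').1 (mem_rest.1 hx)
    ((mem_invs.1 hg).1.map (mem_rest.1 hx)) (Ne.symm hgx) e2.symm ?_)
  rw [← mul_smul, (mem_invs.1 hg).2.1, ← e2, ← mul_smul, (mem_invs.1 hg').2.1]

/-- Products of two involutions are translations. -/
theorem mul_mem_transl {g h : G} (hg : g ∈ invs G a b) (hh : h ∈ invs G a b)
    (huniq : ∀ g ∈ invs G a b, ∀ h ∈ invs G a b, ∀ x, InY a b x → g • x = x → h • x = x → g = h) :
    g * h ∈ transl G a b := by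
  obtain ⟨gH, g2, g1⟩ := mem_invs.1 hg
  obtain ⟨hH, h2, h1⟩ := mem_invs.1 hh
  refine mem_transl.2 ⟨gH.mul hH, ?_⟩
  by_cases he : g = h
  · exact Or.inl (he ▸ h2)
  refine Or.inr fun x hx e => he ?_
  rw [mul_smul] at e
  have e' : h • x = g • x := by
    rw [← one_smul G (h • x), ← g2, mul_smul, e]
  by_cases hfx : h • x = x
  · exact huniq g hg h hh x hx (by rw [← e', hfx]) hfx
  · refine (eq_of_two hS hab hH gH hx (hH.map hx) (Ne.symm hfx) e' ?_).symm
    rw [← mul_smul, h2, one_smul]
    exact e.symm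

/-- In the sharply two-transitive stabiliser, each point has a unique involution fixing it when the
number of remaining points is odd. -/
theorem invs_unique_fix (h3 : 2 ≤ (rest a b).card) :
    ∀ g ∈ invs G a b, ∀ h ∈ invs G a b, ∀ x, InY a b x → g • x = x → h • x = x → g = h := by
  intro g hg h hh x hx hgx hhx
  rcases Nat.mod_two_eq_zero_or_one (rest a b).card with hpar | hpar
  · exfalso
    have h0 := invs_fixed_card hS hab hg
    rw [hpar, card_eq_zero, filter_eq_empty_iff] at h0
    exact h0 (mem_rest.2 hx) hgx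
  have hmul := card_invs_mul hS hab
  rw [hpar] at hmul
  have hcard : (invs G a b).card = (rest a b).card := by
    have h4 : (rest a b).card * (rest a b).card - (rest a b).card =
        (rest a b).card * ((rest a b).card - 1) := by rw [Nat.mul_sub, mul_one]
    rw [h4] at hmul
    exact Nat.eq_of_mul_eq_mul_right (by omega) hmul
  have hfix : ∀ g ∈ invs G a b, ∃ x, ((rest a b).filter fun x => g • x = x) = {x} := fun g hg =>
    card_eq_one.1 ((invs_fixed_card hS hab hg).trans hpar)
  choose f hf using hfix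
  have hfmem : ∀ g (hg : g ∈ invs G a b), f g hg ∈ rest a b ∧ g • f g hg = f g hg := fun g hg => by
    have := mem_singleton_self (f g hg)
    rw [← hf g hg, mem_filter] at this
    exact this
  have hfeq : ∀ g (hg : g ∈ invs G a b) x, InY a b x → g • x = x → x = f g hg := fun g hg x hx e =>
    mem_singleton.1 (by rw [← hf g hg]; exact mem_filter.2 ⟨mem_rest.2 hx, e⟩)
  have hsurj : ∀ z ∈ rest a b, ∃ g, ∃ hg : g ∈ invs G a b, f g hg = z := by
    intro z hz
    obtain ⟨hgY, hgf⟩ := hfmem g hg
    obtain ⟨y, hy, hyne⟩ := exists_mem_ne h3 (f g hg)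
    obtain ⟨w, hw, hwz⟩ := exists_mem_ne h3 z
    obtain ⟨k, hk, hk1, -⟩ := exists_two hS hab (mem_rest.1 hgY) (mem_rest.1 hy) hyne.symm
      (mem_rest.1 hz) (mem_rest.1 hw) hwz.symm
    obtain ⟨gH, g2, g1⟩ := mem_invs.1 hg
    have hmem : k * g * k⁻¹ ∈ invs G a b := by
      refine mem_invs.2 ⟨(hk.mul gH).mul hk.inv, ?_, ?_⟩
      · rw [show k * g * k⁻¹ * (k * g * k⁻¹) = k * (g * g) * k⁻¹ by group, g2, mul_one,
          mul_inv_cancel]
      · intro e
        exact g1 (conj_eq_one_iff.1 e)
    refine ⟨_, hmem, (hfeq _ hmem z (mem_rest.1 hz) ?_).symm⟩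
    rw [mul_smul, mul_smul, inv_smul_eq_iff.2 hk1.symm, hgf, hk1]
  have hinj := inj_on_of_surj_on_of_card_le (s := invs G a b) (t := rest a b) f
    (fun g hg => (hfmem g hg).1)
    (fun z hz => by obtain ⟨g, hg, e⟩ := hsurj z hz; exact ⟨g, hg, e⟩) hcard.le
  exact hinj hg hh ((hfeq g hg x hx hgx).symm.trans (hfeq h hh x hx hhx))

omit hS hab in
theorem transl_inv {g : G} (hg : g ∈ transl G a b) : g⁻¹ ∈ transl G a b := by
  obtain ⟨hH, h⟩ := mem_transl.1 hg
  refine mem_transl.2 ⟨hH.inv, h.imp (fun e => by rw [e, inv_one]) fun h y hy e => h y hy ?_⟩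
  rw [inv_smul_eq_iff] at e
  exact e.symm

omit hS hab in
theorem transl_conj {g u : G} (hg : g ∈ transl G a b)
    (hu : (u • a = a ∧ u • b = b) ∨ (u • a = b ∧ u • b = a)) :
    u * g * u⁻¹ ∈ transl G a b := by
  obtain ⟨hH, h⟩ := mem_transl.1 hg
  have hc : ∀ x : X, (u * g * u⁻¹) • x = u • g • u⁻¹ • x := fun x => by rw [mul_smul, mul_smul]
  refine mem_transl.2 ⟨?_, ?_⟩
  · rcases hu with ⟨h1, h2⟩ | ⟨h1, h2⟩
    · exact ⟨by rw [hc, inv_smul_eq_iff.2 h1.symm, hH.1, h1],
        by rw [hc, inv_smul_eq_iff.2 h2.symm, hH.2, h2]⟩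
    · exact ⟨by rw [hc, inv_smul_eq_iff.2 h2.symm, hH.2, h2],
        by rw [hc, inv_smul_eq_iff.2 h1.symm, hH.1, h1]⟩
  · rcases h with h | h
    · exact Or.inl (by rw [h, mul_one, mul_inv_cancel])
    · refine Or.inr fun y hy e => h (u⁻¹ • y) ⟨?_, ?_⟩ ?_
      · intro e'
        rw [inv_smul_eq_iff] at e'
        rcases hu with ⟨h1, -⟩ | ⟨h1, -⟩
        · exact hy.1 (e'.trans h1)
        · exact hy.2 (e'.trans h1)
      · intro e'
        rw [inv_smul_eq_iff] at e'
        rcases hu with ⟨-, h2⟩ | ⟨-, h2⟩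
        · exact hy.2 (e'.trans h2)
        · exact hy.1 (e'.trans h2)
      · rw [hc] at e
        rw [← inv_smul_smul u (g • u⁻¹ • y), e]

theorem card_eq_eleven_of_sharp4 (hX : 7 ≤ Fintype.card X) :
    Fintype.card X = 11 := by
  have hrest := card_rest (a := a) (b := b) hab
  have h3 : 2 ≤ (rest a b).card := by omega
  have hAcard := card_transl hS hab h3
  set q := (rest a b).card with hq
  have huniq := invs_unique_fix hS hab h3
  obtain ⟨x₀, hx₀, y₀, hy₀, hxy₀⟩ := one_lt_card.1 h3
  -- four points determine an element, so a nontrivial element fixes at most three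
  have hfix3 : ∀ g : G, g ≠ 1 → (univ.filter fun x : X => g • x = x).card ≤ 3 := by
    intro g hg
    by_contra h
    obtain ⟨s, hs, hs4⟩ := exists_subset_card_eq (s := univ.filter fun x : X => g • x = x) (n := 4) (by omega)
    obtain ⟨w, x, y, z, h1, h2, h3, h4, h5, h6, rfl⟩ := card_eq_four.1 hs4
    refine hg (hS.uniq h1 h2 h3 h4 h5 h6 ?_ ?_ ?_ ?_) <;> rw [one_smul] <;>
      exact (mem_filter.1 (hs (by simp))).2
  obtain ⟨t, htH, ht2, ht1, -, -⟩ :=
    exists_swap hS hab (mem_rest.1 hx₀) (mem_rest.1 hy₀) hxy₀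
  have htJ : t ∈ invs G a b := mem_invs.2 ⟨htH, ht2, ht1⟩
  -- the translations: closed under multiplication, and inverted by `t`
  have hone : (1 : G) ∈ transl G a b := mem_transl.2 ⟨InH.one, Or.inl rfl⟩
  have hmul : ∀ x ∈ transl G a b, ∀ y ∈ transl G a b, x * y ∈ transl G a b ∧ x * y = y * x := by
    have hinvol := card_invs_mul hS hab
    rw [← hq, show q * q - q = q * (q - 1) by rw [Nat.mul_sub, mul_one]] at hinvol
    rcases Nat.mod_two_eq_zero_or_one q with hpar | hpar
    · -- even: the translations are the involutions and the identity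
      rw [hpar, Nat.sub_zero, mul_comm q] at hinvol
      have hJc : (invs G a b).card = q - 1 := Nat.eq_of_mul_eq_mul_right (by omega) hinvol
      have hJA : invs G a b ⊆ transl G a b := by
        intro g hg
        refine mem_transl.2 ⟨(mem_invs.1 hg).1, Or.inr fun y hy e => ?_⟩
        have := invs_fixed_card hS hab hg
        rw [← hq, hpar, card_eq_zero, filter_eq_empty_iff] at this
        exact this (mem_rest.2 hy) e
      have hAeq : transl G a b = insert 1 (invs G a b) := by
        refine (eq_of_subset_of_card_le (insert_subset hone hJA) ?_).symm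
        rw [card_insert_of_notMem (fun h => (mem_invs.1 h).2.2 rfl), hJc, hAcard]
        omega
      have hsq : ∀ x ∈ transl G a b, x * x = 1 := by
        intro x hx
        rw [hAeq, mem_insert] at hx
        rcases hx with rfl | hx
        · exact one_mul 1
        · exact (mem_invs.1 hx).2.1
      intro x hx y hy
      have hxy : x * y ∈ transl G a b := by
        rw [hAeq, mem_insert] at hx hy
        rcases hx with rfl | hx
        · rw [one_mul, hAeq]; exact mem_insert.2 hy
        rcases hy with rfl | hy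
        · rw [mul_one, hAeq]; exact mem_insert_of_mem hx
        exact mul_mem_transl hS hab hx hy huniq
      refine ⟨hxy, ?_⟩
      calc x * y = (x * y)⁻¹ := (inv_eq_of_mul_eq_one_right (hsq _ hxy)).symm
        _ = y * x := by
          rw [mul_inv_rev, inv_eq_of_mul_eq_one_right (hsq x hx),
            inv_eq_of_mul_eq_one_right (hsq y hy)]
    · -- odd: the translations are `j * J` for every involution `j`
      rw [hpar] at hinvol
      have hJc : (invs G a b).card = q := Nat.eq_of_mul_eq_mul_right (by omega) hinvol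
      have hleft : ∀ j ∈ invs G a b, (invs G a b).image (fun k => j * k) = transl G a b := by
        intro j hj
        refine eq_of_subset_of_card_le ?_ ?_
        · intro x hx
          obtain ⟨k, hk, rfl⟩ := mem_image.1 hx
          exact mul_mem_transl hS hab hj hk huniq
        · rw [card_image_of_injective _ (mul_right_injective j), hJc, hAcard]
      have hright : ∀ j ∈ invs G a b, (invs G a b).image (fun k => k * j) = transl G a b := by
        intro j hj
        refine eq_of_subset_of_card_le ?_ ?_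
        · intro x hx
          obtain ⟨k, hk, rfl⟩ := mem_image.1 hx
          exact mul_mem_transl hS hab hk hj huniq
        · rw [card_image_of_injective _ (mul_left_injective j), hJc, hAcard]
      have hinvt : ∀ x ∈ transl G a b, t * x * t = x⁻¹ := by
        intro x hx
        rw [← hleft t htJ, mem_image] at hx
        obtain ⟨k, hk, rfl⟩ := hx
        have hk2 := (mem_invs.1 hk).2.1
        rw [mul_inv_rev, inv_eq_of_mul_eq_one_right ht2, inv_eq_of_mul_eq_one_right hk2,
          ← mul_assoc t t, ht2, one_mul]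
      intro x hx y hy
      have hxy : x * y ∈ transl G a b := by
        rw [← hright t htJ, mem_image] at hx
        rw [← hleft t htJ, mem_image] at hy
        obtain ⟨k, hk, rfl⟩ := hx
        obtain ⟨l, hl, rfl⟩ := hy
        rw [show k * t * (t * l) = k * l by
          rw [mul_assoc, ← mul_assoc t t, ht2, one_mul]]
        exact mul_mem_transl hS hab hk hl huniq
      refine ⟨hxy, inv_injective ?_⟩
      calc (x * y)⁻¹ = t * (x * y) * t := (hinvt _ hxy).symm
        _ = (t * x * t) * (t * y * t) := by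
          simp only [mul_assoc]; rw [← mul_assoc t t, ht2, one_mul]
        _ = (y * x)⁻¹ := by rw [hinvt x hx, hinvt y hy, mul_inv_rev]
  let A : Subgroup G :=
    { carrier := {g | g ∈ transl G a b}
      one_mem' := hone
      mul_mem' := fun hx hy => (hmul _ hx _ hy).1
      inv_mem' := fun hx => transl_inv hx }
  have hAc : Nat.card A = q := by
    rw [← hAcard, ← Fintype.card_coe, ← Nat.card_eq_fintype_card]
    rfl
  have hconjA : ∀ u : G, (u • a = b ∧ u • b = a) → ∀ x : A, u * (x : G) * u⁻¹ ∈ A := fun u hu x =>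
    transl_conj (u := u) x.2 (Or.inr hu)
  -- the translations act regularly on the remaining points
  have hreg : ∀ c, InY a b c → ∀ x y : A, (x : G) • c = (y : G) • c → x = y := by
    intro c hc x y e
    rcases (mem_transl.1 (A.mul_mem (A.inv_mem x.2) y.2 : (x : G)⁻¹ * y ∈ A)).2 with h | h
    · exact Subtype.ext (inv_mul_eq_one.1 h)
    · exact absurd (by rw [mul_smul, ← e, inv_smul_smul]) (h c hc)
  have horb : ∀ c, InY a b c → ∀ d, InY a b d → ∃ x : A, (x : G) • c = d := by
    intro c hc
    have h : (univ : Finset A).image (fun x : A => (x : G) • c) = rest a b := by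
      refine eq_of_subset_of_card_le ?_ ?_
      · intro d hd
        obtain ⟨x, -, rfl⟩ := mem_image.1 hd
        exact mem_rest.2 ((mem_transl.1 x.2).1.map hc)
      · rw [card_image_of_injective _ (fun x y e => hreg c hc x y e), card_univ,
          ← Nat.card_eq_fintype_card, hAc]
    intro d hd
    rw [← mem_rest, ← h, mem_image] at hd
    obtain ⟨x, -, e⟩ := hd
    exact ⟨x, e⟩
  -- an involution swapping the base points, fixing `c`: at most `fix` many translations commute
  have hker : ∀ u c, (u • a = b ∧ u • b = a) → InY a b c → u • c = c → u ≠ 1 →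
      (univ.filter fun x : A => u * (x : G) * u⁻¹ = x).card ≤ 3 := by
    intro u c hu hc huc hu1
    refine le_trans ?_ (hfix3 u hu1)
    refine card_le_card_of_injOn (fun x : A => (x : G) • c) ?_ fun x _ y _ e => hreg c hc x y e
    intro x hx
    have hx' := (mem_filter.1 hx).2
    refine mem_filter.2 ⟨mem_univ _, ?_⟩
    show u • (x : G) • c = (x : G) • c
    conv_rhs => rw [← hx', mul_smul, mul_smul, inv_smul_eq_iff.2 huc.symm]
  rcases Nat.mod_two_eq_zero_or_one q with hpar | hpar
  · -- even
    exfalso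
    obtain ⟨u, hua, hub, huc, hud⟩ := hS.exist hab (mem_rest.1 hx₀).1.symm (mem_rest.1 hy₀).1.symm
      (mem_rest.1 hx₀).2.symm (mem_rest.1 hy₀).2.symm hxy₀ hab.symm (mem_rest.1 hx₀).2.symm
      (mem_rest.1 hy₀).2.symm (mem_rest.1 hx₀).1.symm (mem_rest.1 hy₀).1.symm hxy₀
    have hu1 : u ≠ 1 := by rintro rfl; exact hab (by rwa [one_smul] at hua)
    have hu2 : u * u = 1 := by
      refine hS.uniq hab (mem_rest.1 hx₀).1.symm (mem_rest.1 hy₀).1.symm
        (mem_rest.1 hx₀).2.symm (mem_rest.1 hy₀).2.symm hxy₀ ?_ ?_ ?_ ?_ <;>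
        simp [mul_smul, hua, hub, huc, hud]
    have hsq : ∀ x : A, (x : G) * x = 1 := by
      intro x
      have hm := mem_transl.1 x.2
      by_contra hne
      rcases hm.2 with h | h
      · exact hne (by rw [h, one_mul])
      -- fixed point free in an even group: an involution by counting
      have hinvol := card_invs_mul hS hab
      rw [← hq, hpar, Nat.sub_zero, show q * q - q = (q - 1) * q by rw [Nat.sub_mul, one_mul]] at hinvol
      have hJc : (invs G a b).card = q - 1 := Nat.eq_of_mul_eq_mul_right (by omega) hinvol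
      have hJA : invs G a b ⊆ transl G a b := by
        intro g hg
        refine mem_transl.2 ⟨(mem_invs.1 hg).1, Or.inr fun y hy e => ?_⟩
        have := invs_fixed_card hS hab hg
        rw [← hq, hpar, card_eq_zero, filter_eq_empty_iff] at this
        exact this (mem_rest.2 hy) e
      have hAeq : transl G a b = insert 1 (invs G a b) := by
        refine (eq_of_subset_of_card_le (insert_subset hone hJA) ?_).symm
        rw [card_insert_of_notMem (fun h => (mem_invs.1 h).2.2 rfl), hJc, hAcard]
        omega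
      have hx : (x : G) ∈ transl G a b := x.2
      rw [hAeq, mem_insert] at hx
      rcases hx with hx | hx
      · exact hne (by rw [hx, one_mul])
      · exact hne (mem_invs.1 hx).2.1
    have hk2 : (univ.filter fun x : A => u * (x : G) * u⁻¹ = x).card ≤ 2 := by
      have hfu := hfix3 u hu1
      have hp := fixed_parity (X := X) hu2
      have : Fintype.card X % 2 = 0 := by omega
      refine le_trans ?_ (show (univ.filter fun x : X => u • x = x).card ≤ 2 by omega)
      refine card_le_card_of_injOn (fun x : A => (x : G) • x₀) ?_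
        fun x _ y _ e => hreg x₀ (mem_rest.1 hx₀) x y e
      intro x hx
      have hx' := (mem_filter.1 hx).2
      refine mem_filter.2 ⟨mem_univ _, ?_⟩
      show u • (x : G) • x₀ = (x : G) • x₀
      conv_rhs => rw [← hx', mul_smul, mul_smul, inv_smul_eq_iff.2 huc.symm]
    let f : A → A := fun x =>
      ⟨(x : G) * (u * (x : G) * u⁻¹), A.mul_mem x.2 (hconjA u ⟨hua, hub⟩ x)⟩
    have hrange : ∀ x : A, u * (f x : G) * u⁻¹ = f x := by
      intro x
      show u * ((x : G) * (u * (x : G) * u⁻¹)) * u⁻¹ = (x : G) * (u * (x : G) * u⁻¹)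
      rw [show u * ((x : G) * (u * (x : G) * u⁻¹)) * u⁻¹
          = (u * x * u⁻¹) * (u * u * x * (u * u)⁻¹) by group, hu2, inv_one, one_mul, mul_one]
      exact (hmul _ x.2 _ (hconjA u ⟨hua, hub⟩ x)).2.symm
    have hfib : ∀ y : A, (univ.filter fun x : A => f x = y).card ≤
        (univ.filter fun x : A => u * (x : G) * u⁻¹ = x).card := by
      intro y
      rcases (univ.filter fun x : A => f x = y).eq_empty_or_nonempty with h | ⟨z, hz⟩
      · simp [h]
      refine card_le_card_of_injOn (fun x : A => z⁻¹ * x) ?_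
        fun x _ x' _ e => mul_left_cancel (e : z⁻¹ * x = z⁻¹ * x')
      intro x hx
      have e : f x = f z := (mem_filter.1 hx).2.trans (mem_filter.1 hz).2.symm
      refine mem_filter.2 ⟨mem_univ _, ?_⟩
      have e' : (x : G) * (u * (x : G) * u⁻¹) = (z : G) * (u * (z : G) * u⁻¹) := congrArg Subtype.val e
      show u * ((z : G)⁻¹ * x) * u⁻¹ = (z : G)⁻¹ * x
      rw [show u * ((z : G)⁻¹ * x) * u⁻¹ = (u * (z : G) * u⁻¹)⁻¹ * (u * x * u⁻¹) by group]
      have hx2 : (x : G)⁻¹ = x := inv_eq_of_mul_eq_one_right (hsq x)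
      have hz2 : (z : G)⁻¹ = z := inv_eq_of_mul_eq_one_right (hsq z)
      have e2 : u * (x : G) * u⁻¹ = (x : G) * ((z : G) * (u * (z : G) * u⁻¹)) := by
        rw [← e', ← mul_assoc, hsq x, one_mul]
      have hzz : u * (z : G) * u⁻¹ * (u * (z : G) * u⁻¹) = 1 :=
        hsq ⟨_, hconjA u ⟨hua, hub⟩ z⟩
      rw [e2, inv_eq_of_mul_eq_one_right hzz, ← mul_assoc (x : G),
        (hmul _ (A.mul_mem x.2 z.2) _ (hconjA u ⟨hua, hub⟩ z)).2, ← mul_assoc,
        hzz, one_mul, (hmul _ x.2 _ z.2).2, hz2]
    have hcount := card_eq_sum_card_fiberwise (f := f) (s := (univ : Finset A))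
      (t := univ.filter fun x : A => u * (x : G) * u⁻¹ = x)
      (fun x _ => mem_filter.2 ⟨mem_univ _, hrange x⟩)
    rw [card_univ, ← Nat.card_eq_fintype_card, hAc] at hcount
    have hle := sum_le_card_nsmul (univ.filter fun x : A => u * (x : G) * u⁻¹ = x)
      (fun y => (univ.filter fun x : A => f x = y).card) _ fun y _ => hfib y
    rw [smul_eq_mul] at hle
    have := (hcount.le.trans hle).trans (Nat.mul_le_mul hk2 hk2)
    omega
  · -- odd
    have hJfix := invs_fixed_card hS hab htJ
    rw [← hq, hpar, card_eq_one] at hJfix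
    obtain ⟨c, hc⟩ := hJfix
    have hcm : c ∈ rest a b ∧ t • c = c := by
      have := mem_singleton_self c
      rw [← hc, mem_filter] at this
      exact this
    have hcY := mem_rest.1 hcm.1
    have hcu : ∀ x, InY a b x → t • x = x → x = c := fun x hx e =>
      mem_singleton.1 (by rw [← hc]; exact mem_filter.2 ⟨mem_rest.2 hx, e⟩)
    obtain ⟨d, hd, hdc⟩ := exists_mem_ne h3 c
    have hdY := mem_rest.1 hd
    have heY : InY a b (t • d) := htH.map hdY
    have hde : d ≠ t • d := fun e => hdc (hcu d hdY e.symm)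
    obtain ⟨u, hua, hub, hud, hue⟩ := hS.exist hab hdY.1.symm heY.1.symm hdY.2.symm heY.2.symm hde
      hab.symm hdY.2.symm heY.2.symm hdY.1.symm heY.1.symm hde
    have hu1 : u ≠ 1 := by rintro rfl; exact hab (by rwa [one_smul] at hua)
    have hu2 : u * u = 1 := by
      refine hS.uniq hab hdY.1.symm heY.1.symm hdY.2.symm heY.2.symm hde ?_ ?_ ?_ ?_ <;>
        simp [mul_smul, hua, hub, hud, hue]
    have hte : t • t • d = d := by rw [← mul_smul, ht2, one_smul]
    have hut : u * t = t * u := by
      refine hS.uniq hab hdY.1.symm heY.1.symm hdY.2.symm heY.2.symm hde ?_ ?_ ?_ ?_ <;>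
        simp [mul_smul, hua, hub, hud, hue, htH.1, htH.2, hte]
    have huc : u • c = c := by
      refine hcu _ ⟨fun e => hcY.2 ?_, fun e => hcY.1 ?_⟩ ?_
      · exact smul_left_cancel u (e.trans hub.symm)
      · exact smul_left_cancel u (e.trans hua.symm)
      · rw [← mul_smul, ← hut, mul_smul, hcm.2]
    have hinvt : ∀ x : A, t * (x : G) * t = (x : G)⁻¹ := by
      intro x
      obtain ⟨y, hy⟩ : ∃ y : A, (y : G) = t * x * t :=
        ⟨⟨_, by have := transl_conj (u := t) x.2 (Or.inl ⟨htH.1, htH.2⟩)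
                rwa [inv_eq_of_mul_eq_one_right ht2] at this⟩, rfl⟩
      -- `x * (t x t)` is fixed by conjugation by `t`, hence fixes `c`
      have hprod : ((x * y : A) : G) • c = c := by
        refine hcu _ ((mem_transl.1 (x * y : A).2).1.map hcY) ?_
        rw [← mul_smul, Subgroup.coe_mul, hy,
          show t * ((x : G) * (t * (x : G) * t)) = ((t * x * t) * x) * t by simp [mul_assoc],
          mul_smul, hcm.2, ← hy, (hmul _ y.2 _ x.2).2]
      have := hreg c hcY (x * y) 1 (by simpa using hprod)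
      rw [← hy]
      exact (inv_eq_of_mul_eq_one_right (congrArg Subtype.val this)).symm
    obtain ⟨α₀, hα₀⟩ := horb c hcY d hdY
    have hC0 : u * (α₀ : G) * u⁻¹ = α₀ := by
      have := hreg c hcY ⟨_, hconjA u ⟨hua, hub⟩ α₀⟩ α₀ (by
        show (u * (α₀ : G) * u⁻¹) • c = _
        rw [mul_smul, mul_smul, inv_smul_eq_iff.2 huc.symm, hα₀, hud])
      exact congrArg Subtype.val this
    -- the centraliser of `u` in the translations has order three
    let C : Subgroup A :=
      { carrier := {x | u * (x : G) * u⁻¹ = x}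
        one_mem' := by simp
        mul_mem' := fun {x y} (hx : u * (x : G) * u⁻¹ = x) (hy : u * (y : G) * u⁻¹ = y) => by
          show u * ((x : G) * y) * u⁻¹ = (x : G) * y
          conv_rhs => rw [← hx, ← hy]
          group
        inv_mem' := fun {x} (hx : u * (x : G) * u⁻¹ = x) => by
          show u * (x : G)⁻¹ * u⁻¹ = (x : G)⁻¹
          conv_rhs => rw [← hx]
          group }
    have hC3 : Nat.card C ≤ 3 := by
      refine le_trans (le_of_eq ?_) (hker u c ⟨hua, hub⟩ hcY huc hu1)
      rw [Nat.card_eq_fintype_card]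
      exact Fintype.card_of_subtype _ fun x => by simp; rfl
    have hdvd : Nat.card C ∣ q := hAc ▸ Subgroup.card_subgroup_dvd_card C
    have hC2 : 1 < Nat.card C := by
      rw [Finite.one_lt_card_iff_nontrivial]
      refine ⟨⟨α₀, hC0⟩, 1, fun e => hdc ?_⟩
      rw [← hα₀, congrArg (fun x : C => ((x : A) : G)) e]
      simp
    have hC : Nat.card C = 3 := by
      rcases (show Nat.card C = 2 ∨ Nat.card C = 3 by omega) with h | h
      · exfalso; rw [h] at hdvd; omega
      · exact h
    have h3q : 3 ∣ q := hC ▸ hdvd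
    -- elements inverted by `u` give fixed points of `t * u`
    let f : A → A := fun x => x⁻¹ * ⟨_, hconjA u ⟨hua, hub⟩ x⟩
    have hinv : ∀ x : A, u * (f x : G) * u⁻¹ = (f x : G)⁻¹ := by
      intro x
      show u * ((x : G)⁻¹ * (u * x * u⁻¹)) * u⁻¹ = ((x : G)⁻¹ * (u * x * u⁻¹))⁻¹
      rw [show u * ((x : G)⁻¹ * (u * x * u⁻¹)) * u⁻¹
          = (u * x * u⁻¹)⁻¹ * (u * u * x * (u * u)⁻¹) by group, hu2]
      group
    have hwfix : ∀ x : A, (t * u) • ((f x : G) • c) = (f x : G) • c := by
      intro x
      have e1 : u • (f x : G) • c = (f x : G)⁻¹ • c := by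
        conv_lhs => rw [← inv_smul_eq_iff.2 huc.symm]
        rw [← mul_smul, ← mul_smul, hinv]
      have e2 : t * (f x : G)⁻¹ = (f x : G) * t := by
        rw [← hinvt (f x), ← mul_assoc, ← mul_assoc, ht2, one_mul]
      rw [mul_smul, e1, ← mul_smul, e2, mul_smul, hcm.2]
    have hw1 : t * u ≠ 1 := by
      intro e
      have : (t * u) • a = a := by rw [e, one_smul]
      rw [mul_smul, hua, htH.2] at this
      exact hab this.symm
    have hfib : ∀ y : A, (univ.filter fun x : A => f x = y).card ≤ 3 := by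
      intro y
      rcases (univ.filter fun x : A => f x = y).eq_empty_or_nonempty with h | ⟨z, hz⟩
      · simp [h]
      refine le_trans ?_ (hker u c ⟨hua, hub⟩ hcY huc hu1)
      refine card_le_card_of_injOn (fun x : A => x * z⁻¹) ?_
        fun x _ x' _ e => mul_right_cancel (e : x * z⁻¹ = x' * z⁻¹)
      intro x hx
      have e := congrArg Subtype.val ((mem_filter.1 hx).2.trans (mem_filter.1 hz).2.symm)
      refine mem_filter.2 ⟨mem_univ _, ?_⟩
      change (x : G)⁻¹ * (u * x * u⁻¹) = (z : G)⁻¹ * (u * z * u⁻¹) at e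
      show u * ((x : G) * (z : G)⁻¹) * u⁻¹ = (x : G) * (z : G)⁻¹
      rw [show u * ((x : G) * (z : G)⁻¹) * u⁻¹ = (u * x * u⁻¹) * (u * z * u⁻¹)⁻¹ by group,
        show u * (x : G) * u⁻¹ = x * ((z : G)⁻¹ * (u * z * u⁻¹)) by rw [← e, mul_inv_cancel_left]]
      group
    have himg : ((univ : Finset A).image f).card ≤ 3 := by
      refine le_trans ?_ (hfix3 _ hw1)
      refine card_le_card_of_injOn (fun y : A => (y : G) • c) ?_ fun x _ y _ e => hreg c hcY x y e
      intro y hy
      obtain ⟨x, -, rfl⟩ := mem_image.1 hy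
      exact mem_filter.2 ⟨mem_univ _, hwfix x⟩
    have hcount := card_eq_sum_card_image f (univ : Finset A)
    rw [card_univ, ← Nat.card_eq_fintype_card, hAc] at hcount
    have hle := sum_le_card_nsmul ((univ : Finset A).image f) _ 3 fun y _ => hfib y
    rw [← hcount, smul_eq_mul] at hle
    omega

end Count

theorem degree_of_sharp4 [Finite X] [IsMultiplyPretransitive G X 4]
    (hsharp : ∀ x : Fin 4 ↪ X, stabilizer G x = ⊥) (h4 : 4 ≤ Nat.card X) :
    Nat.card X = 4 ∨ Nat.card X = 5 ∨ Nat.card X = 6 ∨ Nat.card X = 11 := by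
  classical
  let _ : Fintype X := Fintype.ofFinite X
  have hG : Finite G := Nat.finite_of_card_ne_zero (by
    rw [card_of_sharply hsharp h4]
    exact (Nat.descFactorial_pos.2 h4).ne')
  let _ : Fintype G := Fintype.ofFinite G
  rw [Nat.card_eq_fintype_card] at h4 ⊢
  by_cases h7 : 7 ≤ Fintype.card X
  · obtain ⟨a, b, hab⟩ := Fintype.one_lt_card_iff.1 (show 1 < Fintype.card X by omega)
    have := card_eq_eleven_of_sharp4 (sharp4_of_sharply hsharp) hab h7
    omega
  · omega

section Higher

theorem sharply_stabilizer_step [Finite X] {k : ℕ} [IsMultiplyPretransitive G X (k + 1)]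
    (hsharp : ∀ x : Fin (k + 1) ↪ X, stabilizer G x = ⊥) (hk : k + 1 ≤ Nat.card X) :
    ∃ a : X, IsMultiplyPretransitive (stabilizer G a) (SubMulAction.ofStabilizer G a) k ∧
      (∀ x : Fin k ↪ SubMulAction.ofStabilizer G a, stabilizer (stabilizer G a) x = ⊥) ∧
      Nat.card (SubMulAction.ofStabilizer G a) = Nat.card X - 1 := by
  have := isPretransitive_of_le (G := G) (X := X) (k := k + 1) (by omega) hk
  obtain ⟨a⟩ : Nonempty X := (Nat.card_ne_zero.1 (by omega)).1
  exact ⟨a, SubMulAction.ofStabilizer.isMultiplyPretransitive.1 inferInstance,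
    sharply_stabilizer hsharp a, SubMulAction.nat_card_ofStabilizer_eq G a⟩

theorem degree_of_sharp5 [Finite X] [IsMultiplyPretransitive G X 5]
    (hsharp : ∀ x : Fin 5 ↪ X, stabilizer G x = ⊥) (h5 : 5 ≤ Nat.card X) :
    Nat.card X = 5 ∨ Nat.card X = 6 ∨ Nat.card X = 7 ∨ Nat.card X = 12 := by
  obtain ⟨a, h1, h2, h3⟩ := sharply_stabilizer_step hsharp h5
  have := degree_of_sharp4 h2 (by omega)
  omega

theorem card_ne_thirteen [Finite X] [IsMultiplyPretransitive G X 6]
    (hsharp : ∀ x : Fin 6 ↪ X, stabilizer G x = ⊥) : Nat.card X ≠ 13 := by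
  intro h
  have hk : 6 ≤ Nat.card X := by omega
  have hc : Nat.card G = 13 * 95040 := by rw [card_of_sharply hsharp hk, h]; decide
  have : Finite G := Nat.finite_of_card_ne_zero (by omega)
  have := faithful_of_sharply hsharp hk
  have := isPretransitive_of_le (G := G) (X := X) (k := 6) (by omega) hk
  have key : ∀ d ∈ (13 - 1).divisors, d ∣ 95040 → (95040 / d) % 13 = 1 → False := by decide +kernel
  have : Fact (Nat.Prime 13) := ⟨by norm_num⟩
  obtain ⟨P⟩ : Nonempty (Sylow 13 G) := inferInstance
  obtain ⟨-, d, h1, h2, h3, -⟩ :=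
    exists_normalizer_card_of_prime_degree (X := X) (m := 95040) (by norm_num) h hc (by decide +kernel) P
  exact key d h1 h2 h3

theorem degree_of_sharp_large : ∀ (j : ℕ) {G : Type u} {X : Type v} [Group G] [MulAction G X]
    [Finite X] [IsMultiplyPretransitive G X (6 + j)],
    (∀ x : Fin (6 + j) ↪ X, stabilizer G x = ⊥) → 6 + j ≤ Nat.card X →
    Nat.card X = 6 + j ∨ Nat.card X = 6 + j + 1 ∨ Nat.card X = 6 + j + 2 := by
  intro j
  induction j with
  | zero =>
    intro G X _ _ _ _ hsharp hn
    have h13 := card_ne_thirteen (G := G) (X := X) hsharp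
    obtain ⟨a, h1, h2, h3⟩ := sharply_stabilizer_step (k := 5) hsharp hn
    have := degree_of_sharp5 h2 (by omega)
    omega
  | succ j ih =>
    intro G X _ _ _ hk hsharp hn
    obtain ⟨a, h1, h2, h3⟩ := sharply_stabilizer_step (k := 6 + j) hsharp hn
    have := ih (G := stabilizer G a) (X := SubMulAction.ofStabilizer G a) h2 (by omega)
    omega

end Higher

end CfsgLib.Mathieu.Jordan
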