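import Cfsg.Agent.Lib.Mathieu.InvertingThree

/-!
The multiplier at an odd prime: a group of commuting elements of order `p` inverted by an involution,
extended by a group centralised by that involution, with index prime to `p`.
-/

set_option autoImplicit false

namespace CfsgLib.Mathieu.InvertingOdd

open Subgroup CfsgLib.SchurMult CfsgLib.Mathieu.InvertingThree
open scoped commutatorElement

universe v

variable {G : Type v} [Group G] [Finite G]

/-- Two generators with a central commutator of order `p` and fusion: no element of the kernel is a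
commutator of the preimage. -/
theorem local_extraspecial {p : ℕ} (hp : p.Prime) {Δ : Type v} [Group Δ] [Finite Δ] {τ : Δ →* G}
    (hc : τ.ker ≤ Subgroup.center Δ) (hs : Function.Surjective τ) {x y c g h : G}
    {a b a' b' d d' e e' : ℕ} (hxy : x * y * x⁻¹ * y⁻¹ = c) (hx : x ^ p = 1) (hy : y ^ p = 1)
    (hc1 : c ≠ 1) (hxc : Commute x c) (hyc : Commute y c)
    (hgx : g * x * g⁻¹ = x ^ a * c ^ b) (hgc : g * c * g⁻¹ = x ^ d * c ^ e)
    (hdet : (a * e + (p - 1) * (b * d)) % p ≠ 1)
    (hhy : h * y * h⁻¹ = y ^ a' * c ^ b') (hhc : h * c * h⁻¹ = y ^ d' * c ^ e')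
    (hdet' : (a' * e' + (p - 1) * (b' * d')) % p ≠ 1) :
    ∀ z ∈ ⁅(Subgroup.closure {x, y}).comap τ, (Subgroup.closure {x, y}).comap τ⁆, τ z = 1 → z = 1 := by
  obtain ⟨X, rfl⟩ := hs x
  obtain ⟨Y, rfl⟩ := hs y
  set W := ⁅X, Y⁆ with hW
  have hσW : τ W = c := by rw [hW, map_commutatorElement, commutatorElement_def, hxy]
  subst hσW
  have h1 : ⁅X, W⁆ = 1 := OddSylow.comm_eq_one_of_det hc hs hp hxc hx hgx hgc hdet
  have h2 : ⁅Y, W⁆ = 1 := OddSylow.comm_eq_one_of_det hc hs hp hyc hy hhy hhc hdet'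
  rw [commutatorElement_eq_one_iff_mul_comm] at h1 h2
  have hpow : ∀ n : ℕ, ⁅X ^ n, Y⁆ = W ^ n := by
    intro n
    induction n with
    | zero => simp
    | succ n ih =>
      have : ⁅X ^ (n + 1), Y⁆ = X * ⁅X ^ n, Y⁆ * X⁻¹ * W := by
        rw [hW, pow_succ']; simp only [commutatorElement_def]; group
      rw [this, ih, ((show Commute X W from h1).pow_right n).eq, mul_inv_cancel_right, pow_succ]
  have hWp : W ^ p = 1 := by
    rw [← hpow, commutatorElement_eq_one_iff_mul_comm]
    exact (ker_comm hc (show X ^ p ∈ τ.ker by rw [MonoidHom.mem_ker, map_pow, hx]) Y).symm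
  intro u hu huk
  have hn : ∀ s : Δ, s * W = W * s → s ∈ Subgroup.normalizer (Subgroup.zpowers W : Set Δ) := by
    intro s hs
    rw [Subgroup.zpowers_eq_closure]
    refine mem_normalizer_of_conj ?_
    rintro _ rfl
    rw [hs, mul_inv_cancel_right]
    exact Subgroup.subset_closure rfl
  have hle : ⁅(Subgroup.closure (τ '' {X, Y})).comap τ, (Subgroup.closure (τ '' {X, Y})).comap τ⁆ ≤
      Subgroup.zpowers W := by
    refine commutator_comap_closure_le hc {X, Y} _ ?_ ?_
    · rintro s (rfl | rfl)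
      exacts [hn _ h1, hn _ h2]
    · rintro s (rfl | rfl) t (rfl | rfl)
      · simp
      · exact Subgroup.mem_zpowers _
      · rw [← commutatorElement_inv]; exact inv_mem (Subgroup.mem_zpowers _)
      · simp
  rw [Set.image_pair] at hle
  obtain ⟨i, rfl⟩ := hle hu
  haveI := Fact.mk hp
  rw [map_zpow, ← orderOf_dvd_iff_zpow_eq_one,
    orderOf_eq_prime (by rw [← map_pow, hWp, map_one]) hc1] at huk
  obtain ⟨k, rfl⟩ := huk
  show W ^ ((p : ℤ) * k) = 1
  rw [zpow_mul, zpow_natCast, hWp, one_zpow]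

/-- The preimage of a cyclic group is commutative. -/
theorem local_cyclic {Δ : Type v} [Group Δ] {τ : Δ →* G}
    (hc : τ.ker ≤ Subgroup.center Δ) (hs : Function.Surjective τ) (x : G) :
    ∀ z ∈ ⁅(Subgroup.closure {x}).comap τ, (Subgroup.closure {x}).comap τ⁆, τ z = 1 → z = 1 := by
  obtain ⟨X, rfl⟩ := hs x
  have hb := commutator_comap_closure_eq_bot hc {X} (σ := τ) (by rintro s rfl t rfl; simp)
  rw [Set.image_singleton] at hb
  intro z hz _
  rwa [hb, Subgroup.mem_bot] at hz

/-- No stem extension has kernel of order divisible by `p`. -/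
theorem not_dvd_ker {p : ℕ} (hp : p.Prime) (hodd : Odd p) {n : ℕ} (b : Fin n → G) (t : G) (Q : Set G)
    (hbb : ∀ i j, b i * b j = b j * b i) (hb : ∀ i, b i ^ p = 1)
    (hinv : ∀ i, t * b i * t⁻¹ = (b i)⁻¹) (ht : t * t = 1) (htQ : ∀ x ∈ Q, t * x = x * t)
    (hQb : ∀ x ∈ Q, ∀ i, x * b i * x⁻¹ ∈ Subgroup.closure (Set.range b))
    (hwit : ∀ i j, i ≠ j → ∃ w v : Fin n, ((w = i ∧ v = j) ∨ (w = j ∧ v = i)) ∧
      ∃ g u : G, u ∈ Subgroup.closure (Set.range b) ∧ g * b v * g⁻¹ = b v ∧ g * u * g⁻¹ = u * b w)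
    (hloc : ∀ (Δ : Type v) [Group Δ] [Finite Δ] (τ : Δ →* G), Cfsg.IsStemExtension τ →
      ∀ z ∈ ⁅(Subgroup.closure Q).comap τ, (Subgroup.closure Q).comap τ⁆, τ z = 1 → z = 1)
    (hindex : ¬ p ∣ (Subgroup.closure (Set.range b ∪ Q)).index)
    {Γ : Type v} [Group Γ] [Finite Γ] (σ : Γ →* G) (hσ : Cfsg.IsStemExtension σ) :
    ¬ p ∣ Nat.card σ.ker := by
  intro hd
  obtain ⟨Δ, _, _, τ, hτ, hτp⟩ := exists_stem_card_ker_eq hσ hp hd
  refine not_dvd_card_ker_of_local hτ hp _ hindex ?_ (hτp.symm ▸ dvd_rfl)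
  have hc := hτ.2.1
  have hkp : ∀ k ∈ τ.ker, k ^ p = 1 := fun k hk => by
    have := pow_card_eq_one' (x := (⟨k, hk⟩ : τ.ker))
    rw [hτp] at this
    exact congrArg Subtype.val this
  obtain ⟨m, hm⟩ := hodd
  have hone : ∀ k ∈ τ.ker, k ^ 2 = 1 → k = 1 := fun k hk h2 => by
    have := hkp k hk
    rwa [hm, pow_succ, pow_mul, h2, one_pow, one_mul] at this
  obtain ⟨T, hT⟩ := hτ.1 t
  have hlift : ∀ i, ∃ B : Δ, τ B = b i ∧ T * B * T⁻¹ = B⁻¹ := fun i => by
    obtain ⟨B, hB⟩ := hτ.1 (b i)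
    set k := B * (T * B * T⁻¹) with hk
    have hkk : k ∈ τ.ker := by rw [hk, MonoidHom.mem_ker]; simp [hB, hT, hinv i]
    have hkm : k ^ m ∈ τ.ker := pow_mem hkk m
    have hkc : ∀ z, z * k ^ m = k ^ m * z := ker_comm hc hkm
    refine ⟨B * k ^ m, by rw [map_mul, hB, MonoidHom.mem_ker.1 hkm, mul_one], ?_⟩
    have e : k * k ^ m = (k ^ m)⁻¹ := eq_inv_of_mul_eq_one_left (by
      have := hkp k hkk
      rw [hm, two_mul, pow_succ', pow_add] at this
      rw [mul_assoc]; exact this)
    calc T * (B * k ^ m) * T⁻¹ = T * B * (k ^ m * T⁻¹) := by group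
      _ = T * B * T⁻¹ * k ^ m := by rw [← hkc T⁻¹]; group
      _ = B⁻¹ * (k * k ^ m) := by
        rw [← mul_assoc B⁻¹, show B⁻¹ * k = T * B * T⁻¹ by rw [hk]; group]
      _ = (k ^ m)⁻¹ * B⁻¹ := by
        rw [e]
        exact (Commute.inv_right (show Commute B⁻¹ (k ^ m) from hkc _)).eq
      _ = _ := (mul_inv_rev _ _).symm
  choose B hB hBT using hlift
  have hcomm : ∀ i j, Commute (B i) (B j) := by
    intro i j
    by_cases hij : i = j
    · rw [hij]
    obtain ⟨w, v, hwv, g, u, hu, hgv, hgu⟩ := hwit i j hij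
    have hmain : ⁅B w, B v⁆ = 1 := by
      obtain ⟨P, hP⟩ := hτ.1 g
      obtain ⟨U, hU⟩ := hτ.1 u
      have hcu : Commute (τ U) (τ (B v)) := by
        rw [hU, hB]
        refine Subgroup.closure_induction (p := fun z _ => Commute z (b v)) ?_ (Commute.one_left _)
          (fun _ _ _ _ h1 h2 => h1.mul_left h2) (fun _ _ h1 => h1.inv_left) hu
        rintro _ ⟨i, rfl⟩
        exact hbb i v
      have hwv' : Commute (τ (B w)) (τ (B v)) := by rw [hB, hB]; exact hbb w v
      have e1 : ⁅U, B v⁆ = ⁅U * B w, B v⁆ :=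
        ((comm_conj hc hcu P).symm).trans (comm_eq_of_map_eq hc (by simp [hP, hU, hB, hgu])
          (by simp [hP, hB, hgv]))
      rw [comm_mul_left hc hwv'] at e1
      exact left_eq_mul.1 e1
    rw [commutatorElement_eq_one_iff_mul_comm] at hmain
    rcases hwv with ⟨rfl, rfl⟩ | ⟨rfl, rfl⟩
    · exact hmain
    · exact hmain.symm
  set A := Subgroup.closure (Set.range B) with hA
  have hAc : ∀ a ∈ A, ∀ i, Commute a (B i) := fun a ha i => by
    induction ha using Subgroup.closure_induction with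
    | mem z hz => obtain ⟨j, rfl⟩ := hz; exact hcomm j i
    | one => exact Commute.one_left _
    | mul z w _ _ hz hw => exact hz.mul_left hw
    | inv z _ hz => exact hz.inv_left
  have hAA : ∀ a ∈ A, ∀ a' ∈ A, Commute a a' := fun a ha a' ha' => by
    induction ha' using Subgroup.closure_induction with
    | mem z hz => obtain ⟨j, rfl⟩ := hz; exact hAc a ha j
    | one => exact Commute.one_right _
    | mul z w _ _ hz hw => exact hz.mul_right hw
    | inv z _ hz => exact hz.inv_right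
  have hAT : ∀ a ∈ A, T * a * T⁻¹ = a⁻¹ := fun a ha => by
    induction ha using Subgroup.closure_induction with
    | mem z hz => obtain ⟨j, rfl⟩ := hz; exact hBT j
    | one => simp
    | mul z w hz' hw' hz hw =>
      rw [show T * (z * w) * T⁻¹ = (T * z * T⁻¹) * (T * w * T⁻¹) by group, hz, hw, mul_inv_rev,
        ((hAA z hz' w hw').inv_inv).eq]
    | inv z _ hz => rw [show T * z⁻¹ * T⁻¹ = (T * z * T⁻¹)⁻¹ by group, hz]
  have hmapA : A.map τ = Subgroup.closure (Set.range b) := by
    rw [MonoidHom.map_closure, ← Set.range_comp]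
    exact congrArg (fun f => Subgroup.closure (Set.range f)) (funext hB)
  set P := (Subgroup.closure Q).comap τ with hP
  have hTP : ∀ Z ∈ P, Commute T Z := by
    intro Z hZ
    have htz : Commute t (τ Z) := by
      refine Subgroup.closure_induction (p := fun z _ => Commute t z) htQ (Commute.one_right _)
        (fun _ _ _ _ h1 h2 => h1.mul_right h2) (fun _ _ h1 => h1.inv_right) (show τ Z ∈ _ from hZ)
    have hcm : Commute (τ T) (τ Z) := by rw [hT]; exact htz
    have h2 : ⁅T, Z⁆ ^ 2 = 1 := by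
      rw [← comm_pow_left hc hcm, commutatorElement_eq_one_iff_mul_comm]
      exact (ker_comm hc (show T ^ 2 ∈ τ.ker by rw [MonoidHom.mem_ker, map_pow, hT, pow_two, ht]) Z).symm
    exact commutatorElement_eq_one_iff_mul_comm.1 (hone _ (comm_mem_ker hcm) h2)
  have hNQ : Subgroup.closure Q ≤ Subgroup.normalizer (Subgroup.closure (Set.range b) : Set G) := by
    rw [Subgroup.closure_le]
    intro x hx
    exact mem_normalizer_of_conj (by rintro _ ⟨i, rfl⟩; exact hQb x hx i)
  have hPN : ∀ Z ∈ P, Z ∈ Subgroup.normalizer (A : Set Δ) := by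
    intro Z hZ
    refine mem_normalizer_of_conj ?_
    rintro _ ⟨i, rfl⟩
    set u := Z * B i * Z⁻¹ with hu
    have hmem : τ u ∈ A.map τ := by
      rw [hmapA, hu, map_mul, map_mul, map_inv, hB]
      exact (Subgroup.mem_normalizer_iff.1 (hNQ hZ) _).1 (Subgroup.subset_closure ⟨i, rfl⟩)
    obtain ⟨a, ha, hae⟩ := hmem
    have hk : a⁻¹ * u ∈ τ.ker := by rw [MonoidHom.mem_ker, map_mul, map_inv, hae, inv_mul_cancel]
    have hTu : T * u * T⁻¹ = u⁻¹ := by
      rw [hu, show T * (Z * B i * Z⁻¹) * T⁻¹ = (T * Z) * B i * (T * Z)⁻¹ by group, (hTP Z hZ).eq,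
        show Z * T * B i * (Z * T)⁻¹ = Z * (T * B i * T⁻¹) * Z⁻¹ by group, hBT]
      group
    have e : T * (a⁻¹ * u) * T⁻¹ = a * u⁻¹ := by
      rw [show T * (a⁻¹ * u) * T⁻¹ = (T * a * T⁻¹)⁻¹ * (T * u * T⁻¹) by group, hAT a ha, hTu, inv_inv]
    rw [ker_comm hc hk T, mul_inv_cancel_right] at e
    have hau : Commute a u := by
      have hk' := ker_comm hc hk a
      rw [mul_inv_cancel_left, mul_assoc] at hk'
      exact inv_mul_eq_iff_eq_mul.1 hk'.symm |>.symm
    have h1 : a⁻¹ * u = 1 := hone _ hk (by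
      rw [pow_two]
      conv_lhs => arg 2; rw [e]
      rw [hau.inv_right.eq]; group)
    rw [inv_mul_eq_one] at h1
    exact h1 ▸ ha
  set R := ⁅P, P⁆ with hR
  have hRP : R ≤ P := Subgroup.commutator_le.2 fun x hx y hy => by
    rw [commutatorElement_def]
    exact mul_mem (mul_mem (mul_mem hx hy) (inv_mem hx)) (inv_mem hy)
  set S := Set.range B ∪ (P : Set Δ) with hS
  have himg : Set.range b ∪ Q ⊆ τ '' S := by
    rintro x (⟨i, rfl⟩ | hx)
    · exact ⟨B i, Or.inl ⟨i, rfl⟩, hB i⟩
    · obtain ⟨X, hX⟩ := hτ.1 x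
      exact ⟨X, Or.inr (show τ X ∈ Subgroup.closure Q from hX ▸ Subgroup.subset_closure hx), hX⟩
  intro z hz hzk
  have hB' : ∀ i, B i ∈ A := fun i => Subgroup.subset_closure ⟨i, rfl⟩
  have hzK : z ∈ A ⊔ R := by
    have hle : (Subgroup.closure (Set.range b ∪ Q)).comap τ ≤ (Subgroup.closure (τ '' S)).comap τ :=
      Subgroup.comap_mono (Subgroup.closure_mono himg)
    refine commutator_comap_closure_le hc S (A ⊔ R) ?_ ?_ (Subgroup.commutator_mono hle hle hz)
    · rintro s (⟨i, rfl⟩ | hs)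
      · exact Subgroup.le_normalizer (Subgroup.mem_sup_left (hB' i))
      · rw [hA, hR, ← Subgroup.closure_eq ⁅P, P⁆, ← Subgroup.closure_union]
        refine mem_normalizer_of_conj ?_
        rintro x (⟨i, rfl⟩ | hx)
        · exact Subgroup.closure_mono Set.subset_union_left
            ((Subgroup.mem_normalizer_iff.1 (hPN s hs) _).1 (hB' i))
        · refine Subgroup.subset_closure (Or.inr ?_)
          have hn : P ≤ Subgroup.normalizer ((⁅P, P⁆ : Subgroup Δ) : Set Δ) :=
            Subgroup.normalizer_commutator_ge_left P P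
          exact (Subgroup.mem_normalizer_iff.1 (hn hs) _).1 hx
    · have hflip : ∀ Z ∈ P, ∀ i, ⁅Z, B i⁆ ∈ A := fun Z hZ i => by
        rw [commutatorElement_def]
        exact mul_mem ((Subgroup.mem_normalizer_iff.1 (hPN Z hZ) _).1 (hB' i)) (inv_mem (hB' i))
      rintro s (⟨i, rfl⟩ | hs) r (⟨j, rfl⟩ | hr)
      · rw [commutatorElement_eq_one_iff_mul_comm.2 (hcomm i j)]; exact one_mem _
      · rw [← commutatorElement_inv]; exact inv_mem (Subgroup.mem_sup_left (hflip r hr i))
      · exact Subgroup.mem_sup_left (hflip s hs j)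
      · exact Subgroup.mem_sup_right (Subgroup.commutator_mem_commutator hs hr)
  have hRN : R ≤ Subgroup.normalizer (A : Set Δ) := fun r hr => hPN r (hRP hr)
  rw [← SetLike.mem_coe, Subgroup.coe_mul_of_right_le_normalizer_left A R hRN] at hzK
  obtain ⟨a, ha, r, hr, rfl⟩ := hzK
  have hTa := hAT a ha
  have e : T * (a * r) * T⁻¹ = a⁻¹ * r := by
    rw [show T * (a * r) * T⁻¹ = T * a * T⁻¹ * (T * r * T⁻¹) by group, hTa, (hTP r (hRP hr)).eq,
      mul_inv_cancel_right]
  rw [ker_comm hc hzk T, mul_inv_cancel_right] at e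
  have ha2 : a * a = 1 := eq_inv_iff_mul_eq_one.1 (mul_right_cancel e)
  have hak : a = 1 := by
    have hτa : τ a ^ p = 1 := by
      suffices ∀ x ∈ Subgroup.closure (Set.range b), x ^ p = 1 from
        this _ (hmapA ▸ Subgroup.mem_map_of_mem τ ha)
      intro x this
      induction this using Subgroup.closure_induction_left with
      | one => exact one_pow p
      | mul_left x hx y hy ih =>
        obtain ⟨i, rfl⟩ := hx
        have hc' : Commute (b i) y := by
          refine Subgroup.closure_induction (p := fun z _ => Commute (b i) z) ?_ (Commute.one_right _)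
            (fun _ _ _ _ h1 h2 => h1.mul_right h2) (fun _ _ h1 => h1.inv_right) hy
          rintro _ ⟨j, rfl⟩
          exact hbb i j
        rw [hc'.mul_pow, hb, ih, one_mul]
      | inv_mul_cancel x hx y hy ih =>
        obtain ⟨i, rfl⟩ := hx
        have hc' : Commute (b i)⁻¹ y := by
          refine Commute.inv_left ?_
          refine Subgroup.closure_induction (p := fun z _ => Commute (b i) z) ?_ (Commute.one_right _)
            (fun _ _ _ _ h1 h2 => h1.mul_right h2) (fun _ _ h1 => h1.inv_right) hy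
          rintro _ ⟨j, rfl⟩
          exact hbb i j
        rw [hc'.mul_pow, inv_pow, hb, inv_one, ih, one_mul]
    have : a ^ p = a := by rw [hm, pow_succ, pow_mul, pow_two, ha2, one_pow, one_mul]
    exact hone a (by rw [MonoidHom.mem_ker, ← this, map_pow, hτa]) (by rw [pow_two, ha2])
  subst hak
  simp only [one_mul] at hzk ⊢
  exact hloc Δ τ hτ r hr hzk

end CfsgLib.Mathieu.InvertingOdd
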