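import Cfsg.Agent.Lib.Mathieu.CoOneMultMono
import Cfsg.Agent.Lib.Mathieu.InvertingOdd
import Cfsg.Agent.Lib.SchurMult.SmallSylow
import Cfsg.Agent.Lib.SchurMult.PerfectCover
import Cfsg.Agent.Lib.GolayStructure.CoOneSimple

/-!
The automorphism group of the lattice is perfect with trivial multiplier, so the first Conway group has
multiplier of order two.
-/

set_option autoImplicit false
set_option maxRecDepth 100000

namespace CfsgLib.Mathieu.CoOneMult

open Cfsg CfsgLib.Leech CfsgLib.Fischer2 CfsgLib.SchurMult CfsgLib.Mathieu.InvertingThree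
open scoped commutatorElement

local instance fact_prime_three_cm1 : Fact (Nat.Prime 3) := ⟨Nat.prime_three⟩
local instance fact_prime_five_cm1 : Fact (Nat.Prime 5) := ⟨by norm_num⟩
local instance fact_prime_seven_cm1 : Fact (Nat.Prime 7) := ⟨by norm_num⟩
local instance finite_Co0_cm1 : Finite Co0 := finite_Co0

theorem card_eq_at : Nat.card Co0 = 2 ^ 22 * 1982582476875 ∧ Nat.card Co0 = 3 ^ 9 * 422473891840000 ∧
    Nat.card Co0 = 5 ^ 4 * 13304885780938752 ∧ Nat.card Co0 = 7 ^ 2 * 169705175777280000 := by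
  rw [natCard_Co0]
  norm_num

theorem not_two_dvd (Γ : Type) [Group Γ] [Finite Γ] (σ : Γ →* Co0)
    (hσ : Cfsg.IsStemExtension σ) : ¬ 2 ∣ Nat.card σ.ker := by
  have hr := collector_rels
  have hc := collector_conjs
  have hs := series_ok
  simp only [relsOK, List.all_eq_true] at hr
  simp only [conjsOK, List.all_eq_true] at hc
  simp only [seriesOK, List.all_eq_true, List.mem_range] at hs
  refine lazy_not_two_dvd_card_ker Data.col elC (fun k => elC (22 + k)) collector_solved
    (fun e he => ?_) (fun v hv => ?_) (fun e he => ?_)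
    (two_pow_le_card_series elC 22 fun i hi => notMem_of_stepOK (hs i hi))
    ⟨_, by norm_num, card_eq_at.1⟩ Γ σ hσ
  · have := hc e he
    cases e with
    | assoc pre v =>
      simp only [List.all_eq_true, decide_eq_true_eq] at this
      exact this
    | conj k m pairs =>
      simp only [List.all_eq_true, Bool.and_eq_true, decide_eq_true_eq] at this
      exact fun q hq => ⟨(this q hq).1.1, (this q hq).1.2⟩
  · rw [List.getD_eq_getElem _ _ hv]
    exact eq_of_eqC (hr _ (List.getElem_mem hv))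
  · have := hc e he
    cases e with
    | assoc pre v => trivial
    | conj k m pairs =>
      simp only [List.all_eq_true, Bool.and_eq_true] at this
      intro q hq
      have h := eq_of_eqC (this q hq).2
      rw [lprod, lprod_append, lprod_digits, lprod_digits, lprod, lprod, mul_one] at h
      rw [mul_inv_eq_iff_eq_mul]
      exact h

theorem vec_facts {v : List ℤ} (h : v ∈ [Data.v_q3, Data.v_b3, Data.v_five, Data.v_seven]) :
    memTest v = true ∧ CfsgLib.Leech.dotL v v = 32 ∧ v.length = 24 := by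
  have h' := vecs_ok
  simp only [List.all_eq_true, Bool.and_eq_true, decide_eq_true_eq] at h'
  exact ⟨(h' v h).1.1, (h' v h).1.2, (h' v h).2⟩

theorem lprod_two (a b : ℕ) : lprod elC [a, b] = elC a * elC b := by simp [lprod]

theorem lprod_replicate (k n : ℕ) : lprod elC (List.replicate k n) = elC n ^ k := by
  induction k with
  | zero => simp [lprod]
  | succ k ih => rw [List.replicate_succ, lprod, ih, pow_succ']

theorem conj_of_eqG {a b : ℕ} {W : List ℕ} (h : eqG [a, b] (W ++ [a]) = true) :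
    elC a * elC b * (elC a)⁻¹ = lprod elC W := by
  have := eq_of_eqG h
  rw [lprod_two, lprod_append, lprod, lprod, mul_one] at this
  exact mul_inv_eq_iff_eq_mul.2 this

theorem comm_of_eqG {a b : ℕ} (h : eqG [a, b] [b, a] = true) : elC a * elC b = elC b * elC a := by
  have := eq_of_eqG h
  rwa [lprod_two, lprod_two] at this

/-- The generators at an odd prime. -/
noncomputable def gens (B n : ℕ) (i : Fin n) : Co0 := elC (B + i)

theorem lprod_gens_mem {B n : ℕ} {W : List ℕ} (h : ∀ a ∈ W, B ≤ a ∧ a < B + n) :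
    lprod elC W ∈ Subgroup.closure (Set.range (gens B n)) := by
  induction W with
  | nil => exact one_mem _
  | cons a W ih =>
    rw [lprod]
    obtain ⟨h1, h2⟩ := h a List.mem_cons_self
    refine mul_mem (Subgroup.subset_closure ⟨⟨a - B, by omega⟩, ?_⟩)
      (ih fun m hm => h m (List.mem_cons_of_mem _ hm))
    show elC (B + (a - B)) = elC a
    rw [Nat.add_sub_cancel' h1]

/-- What the checks at the primes three and five give. -/
theorem inv_facts {p n B T Q : ℕ} (hp : 1 ≤ p) {words : List (List (List ℕ))}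
    {wits : List (ℕ × ℕ × ℕ × List ℕ)} (h : invOK p n B T Q words wits = true) :
    (∀ i, gens B n i ^ p = 1) ∧ (∀ i j, gens B n i * gens B n j = gens B n j * gens B n i) ∧
    (∀ i, elC T * gens B n i * (elC T)⁻¹ = (gens B n i)⁻¹) ∧ elC T * elC T = 1 ∧
    (∀ k < words.length, elC T * elC (Q + k) = elC (Q + k) * elC T ∧
      ∀ i, elC (Q + k) * gens B n i * (elC (Q + k))⁻¹ ∈ Subgroup.closure (Set.range (gens B n))) ∧
    ∀ i j : Fin n, i ≠ j → ∃ w v : Fin n, ((w = i ∧ v = j) ∨ (w = j ∧ v = i)) ∧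
      ∃ g u : Co0, u ∈ Subgroup.closure (Set.range (gens B n)) ∧ g * gens B n v * g⁻¹ = gens B n v ∧
        g * u * g⁻¹ = u * gens B n w := by
  simp only [invOK, Bool.and_eq_true, List.all_eq_true, List.mem_range, decide_eq_true_eq,
    List.any_eq_true, Bool.or_eq_true, beq_iff_eq] at h
  obtain ⟨⟨⟨⟨hgen, htt⟩, htq⟩, hwit⟩, hcov⟩ := h
  have hb : ∀ i, gens B n i ^ p = 1 := fun i => by
    have := eq_of_eqG (hgen i i.2).1.1.1
    rwa [lprod_replicate, lprod] at this
  refine ⟨hb, fun i j => comm_of_eqG ((hgen i i.2).1.2 j j.2), fun i => ?_, ?_, fun k hk => ?_,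
    fun i j hij => ?_⟩
  · rw [show gens B n i = elC (B + i) from rfl, conj_of_eqG (hgen i i.2).1.1.2, lprod_replicate]
    refine eq_inv_of_mul_eq_one_left ?_
    rw [← pow_succ, Nat.sub_add_cancel hp]
    exact hb i
  · simpa [lprod] using eq_of_eqG htt
  · refine ⟨comm_of_eqG (htq k hk), fun i => ?_⟩
    rw [show gens B n i = elC (B + i) from rfl, conj_of_eqG ((hgen i i.2).2 k hk).1]
    exact lprod_gens_mem ((hgen i i.2).2 k hk).2
  · obtain ⟨⟨w, v, g, u⟩, hm, hwv⟩ :=
      (hcov i i.2 j j.2).resolve_left (fun e => hij (Fin.ext e))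
    obtain ⟨⟨⟨⟨hw, hv⟩, h1⟩, h2⟩, h3⟩ := hwit _ hm
    simp only at hwv hw hv h1 h2 h3
    refine ⟨⟨w, hw⟩, ⟨v, hv⟩, by simpa [Fin.ext_iff] using hwv, elC g, lprod elC u,
      lprod_gens_mem h3, ?_, ?_⟩
    · exact mul_inv_eq_iff_eq_mul.2 (comm_of_eqG h1)
    · have := eq_of_eqG h2
      rw [lprod, lprod_append, lprod_two] at this
      rw [mul_inv_eq_iff_eq_mul, this, gens]
      group

theorem le_card_sup {G : Type*} [Group G] [Finite G] {A B : Subgroup G} (h : ∀ x ∈ A, x ∈ B → x = 1) :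
    Nat.card A * Nat.card B ≤ Nat.card (A ⊔ B : Subgroup G) := by
  rw [← Nat.card_prod]
  refine Nat.card_le_card_of_injective (fun q : A × B => (⟨q.1 * q.2,
    mul_mem (Subgroup.mem_sup_left q.1.2) (Subgroup.mem_sup_right q.2.2)⟩ : (A ⊔ B : Subgroup G))) ?_
  rintro ⟨a, b⟩ ⟨a', b'⟩ e
  have e' : (a : G) * b = a' * b' := congrArg Subtype.val e
  have h1 : (a' : G)⁻¹ * a = 1 := by
    refine h _ (mul_mem (inv_mem a'.2) a.2) ?_
    rw [show (a' : G)⁻¹ * a = b' * (b : G)⁻¹ by
      rw [eq_mul_inv_iff_mul_eq, mul_assoc, e', inv_mul_cancel_left]]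
    exact mul_mem b'.2 (inv_mem b.2)
  rw [inv_mul_eq_one] at h1
  rw [h1] at e'
  exact Prod.ext (Subtype.ext h1.symm) (Subtype.ext (mul_left_cancel e'))

theorem not_three_dvd_ker (Γ : Type) [Group Γ] [Finite Γ] (σ : Γ →* Co0)
    (hσ : Cfsg.IsStemExtension σ) : ¬ 3 ∣ Nat.card σ.ker := by
  obtain ⟨hb, hbb, hinv, htt, hQ, hwit⟩ := inv_facts (by norm_num) inv_three
  have hf := fusion_ok
  simp only [fusionOK, Bool.and_eq_true] at hf
  obtain ⟨⟨⟨⟨⟨⟨⟨⟨⟨⟨⟨⟨⟨⟨⟨hxy, hx3⟩, hy3⟩, hc3⟩, hxc⟩, hyc⟩, hgx⟩, hgc⟩, hhy⟩, hhc⟩, -⟩, -⟩, -⟩, -⟩, -⟩, -⟩ := hf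
  have hx : elC 35 ^ 3 = 1 := by simpa [lprod, pow_succ, mul_assoc] using eq_of_eqG hx3
  have hy : elC 36 ^ 3 = 1 := by simpa [lprod, pow_succ, mul_assoc] using eq_of_eqG hy3
  have hc' : elC 37 ^ 3 = 1 := by simpa [lprod, pow_succ, mul_assoc] using eq_of_eqG hc3
  have hxy' : elC 35 * elC 36 * (elC 35)⁻¹ = elC 37 * elC 36 := by
    rw [conj_of_eqG (W := [37, 36]) hxy, lprod_two]
  set A := Subgroup.closure (Set.range (gens 40 6))
  set Q := Subgroup.closure ({elC 35, elC 36} : Set Co0)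
  have hzQ : elC 37 ∈ Q := by
    have : elC 37 = elC 35 * elC 36 * (elC 35)⁻¹ * (elC 36)⁻¹ := by rw [hxy', mul_inv_cancel_right]
    rw [this]
    have h1 : elC 35 ∈ Q := Subgroup.subset_closure (Or.inl rfl)
    have h2 : elC 36 ∈ Q := Subgroup.subset_closure (Or.inr rfl)
    exact mul_mem (mul_mem (mul_mem h1 h2) (inv_mem h1)) (inv_mem h2)
  have htQ : ∀ x ∈ ({elC 35, elC 36} : Set Co0), elC 34 * x = x * elC 34 := by
    rintro x (rfl | rfl)
    exacts [(hQ 0 (by decide +kernel)).1, (hQ 1 (by decide +kernel)).1]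
  have hQb : ∀ x ∈ ({elC 35, elC 36} : Set Co0), ∀ i, x * gens 40 6 i * x⁻¹ ∈ A := by
    rintro x (rfl | rfl)
    exacts [(hQ 0 (by decide +kernel)).2, (hQ 1 (by decide +kernel)).2]
  have hne : elC 37 ≠ 1 := by
    intro e
    obtain ⟨hm, hn, hl⟩ := vec_facts (v := Data.v_q3) (by simp)
    have := le_card_of_reach (H := (⊥ : Subgroup Co0)) hm hn hl counts.2.2.2.2
      (fun n hn' => by rw [List.mem_singleton.1 hn', e]; exact one_mem _)
    rw [Subgroup.card_bot] at this
    omega
  refine InvertingOdd.not_dvd_ker Nat.prime_three (by decide) (gens 40 6) (elC 34)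
    ({elC 35, elC 36} : Set Co0) hbb hb hinv htt htQ hQb hwit (fun Δ _ _ τ hτ => ?_) ?_ σ hσ
  · refine InvertingOdd.local_extraspecial (p := 3) Nat.prime_three hτ.2.1 hτ.1 (c := elC 37)
      (g := elC 38) (h := elC 39) (a := 2) (b := 0) (d := 0) (e := 1) (a' := 1) (b' := 2) (d' := 0)
      (e' := 2) (by rw [hxy', mul_inv_cancel_right]) hx hy hne (comm_of_eqG hxc) (comm_of_eqG hyc)
      ?_ ?_ (by decide) ?_ ?_ (by decide)
    · rw [conj_of_eqG (W := [35, 35]) hgx]; simp [lprod, pow_succ]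
    · rw [conj_of_eqG (W := [37]) hgc]; simp [lprod]
    · rw [conj_of_eqG (W := [36, 37, 37]) hhy]; simp [lprod, pow_succ, mul_assoc]
    · rw [conj_of_eqG (W := [37, 37]) hhc]; simp [lprod, pow_succ]
  · have hA : IsPGroup 3 A := isPGroup_closure (by rintro _ ⟨i, rfl⟩ _ ⟨j, rfl⟩; exact hbb i j)
      (by rintro _ ⟨i, rfl⟩; exact hb i)
    have hQp : IsPGroup 3 Q := by
      set C := Subgroup.closure ({elC 36, elC 37} : Set Co0)
      have hC : IsPGroup 3 C := isPGroup_closure (by
        rintro a (rfl | rfl) b (rfl | rfl)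
        exacts [rfl, comm_of_eqG hyc, (comm_of_eqG hyc).symm, rfl])
        (by rintro a (rfl | rfl); exacts [hy, hc'])
      have hB : IsPGroup 3 (Subgroup.closure ({elC 35} : Set Co0)) :=
        isPGroup_closure (by rintro a rfl b rfl; rfl) (by rintro a rfl; exact hx)
      have hBC : Subgroup.closure ({elC 35} : Set Co0) ≤ Subgroup.normalizer (C : Set Co0) := by
        rw [Subgroup.closure_le]
        rintro a rfl
        refine mem_normalizer_of_conj ?_
        rintro b (rfl | rfl)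
        · rw [hxy']
          exact mul_mem (Subgroup.subset_closure (Or.inr rfl)) (Subgroup.subset_closure (Or.inl rfl))
        · rw [mul_inv_eq_iff_eq_mul.2 (comm_of_eqG hxc)]
          exact Subgroup.subset_closure (Or.inr rfl)
      refine (hB.to_sup_of_normal_right' hC hBC).to_le ?_
      rw [Subgroup.closure_le]
      rintro a (rfl | rfl)
      · exact Subgroup.mem_sup_left (Subgroup.subset_closure rfl)
      · exact Subgroup.mem_sup_right (Subgroup.subset_closure (Or.inl rfl))
    have hQA : Q ≤ Subgroup.normalizer (A : Set Co0) := by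
      rw [Subgroup.closure_le]
      intro x hx'
      exact mem_normalizer_of_conj (by rintro _ ⟨i, rfl⟩; exact hQb x hx' i)
    rw [Subgroup.closure_union]
    refine not_dvd_index card_eq_at.2.1 (by norm_num) (sup_comm A Q ▸ hQp.to_sup_of_normal_right' hA hQA) ?_
    refine le_trans ?_ (le_card_sup (fun x hxA hxQ => ?_))
    · have h1 : 729 ≤ Nat.card A := by
        obtain ⟨hm, hn, hl⟩ := vec_facts (v := Data.v_b3) (by simp)
        refine le_card_of_reach hm hn hl counts.2.1 fun n hn' => Subgroup.subset_closure ?_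
        simp only [List.mem_cons, List.not_mem_nil, or_false] at hn'
        rcases hn' with rfl | rfl | rfl | rfl | rfl | rfl
        exacts [⟨0, rfl⟩, ⟨1, rfl⟩, ⟨2, rfl⟩, ⟨3, rfl⟩, ⟨4, rfl⟩, ⟨5, rfl⟩]
      have h2 : 27 ≤ Nat.card Q := by
        obtain ⟨hm, hn, hl⟩ := vec_facts (v := Data.v_q3) (by simp)
        refine le_card_of_reach hm hn hl counts.1 fun n hn' => ?_
        simp only [List.mem_cons, List.not_mem_nil, or_false] at hn'
        rcases hn' with rfl | rfl | rfl
        exacts [Subgroup.subset_closure (Or.inl rfl), Subgroup.subset_closure (Or.inr rfl), hzQ]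
      calc 3 ^ 9 = 729 * 27 := by norm_num
        _ ≤ _ := Nat.mul_le_mul h1 h2
    · have e1' : ∀ a ∈ A, elC 34 * a * (elC 34)⁻¹ = a⁻¹ := by
        have hcA : ∀ a ∈ A, ∀ a' ∈ A, Commute a a' := fun a ha a' ha' => by
          refine Subgroup.closure_induction₂ (p := fun u v _ _ => Commute u v) ?_ (fun _ _ => Commute.one_left _)
            (fun _ _ => Commute.one_right _) (fun _ _ _ _ _ _ h1 h2 => h1.mul_left h2)
            (fun _ _ _ _ _ _ h1 h2 => h1.mul_right h2) (fun _ _ _ _ h1 => h1.inv_left)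
            (fun _ _ _ _ h1 => h1.inv_right) ha ha'
          rintro _ _ ⟨i, rfl⟩ ⟨j, rfl⟩
          exact hbb i j
        intro a ha
        induction ha using Subgroup.closure_induction with
        | mem z hz => obtain ⟨j, rfl⟩ := hz; exact hinv j
        | one => simp
        | mul z w hz' hw' hz hw =>
          rw [show elC 34 * (z * w) * (elC 34)⁻¹ = (elC 34 * z * (elC 34)⁻¹) * (elC 34 * w * (elC 34)⁻¹)
            by group, hz, hw, mul_inv_rev, ((hcA z hz' w hw').inv_inv).eq]
        | inv z _ hz => rw [show elC 34 * z⁻¹ * (elC 34)⁻¹ = (elC 34 * z * (elC 34)⁻¹)⁻¹ by group, hz]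
      have e2 : elC 34 * x * (elC 34)⁻¹ = x := by
        rw [mul_inv_eq_iff_eq_mul]
        exact Subgroup.closure_induction (p := fun z _ => Commute (elC 34) z) htQ (Commute.one_right _)
          (fun _ _ _ _ h1 h2 => h1.mul_right h2) (fun _ _ h1 => h1.inv_right) hxQ
      have e1 := e1' x hxA
      rw [e2, eq_inv_iff_mul_eq_one] at e1
      obtain ⟨k, hk⟩ := hA ⟨x, hxA⟩
      have hk' : x ^ 3 ^ k = 1 := congrArg Subtype.val hk
      obtain ⟨m, hm⟩ : Odd (3 ^ k) := Odd.pow (by decide)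
      rw [hm, pow_succ, pow_mul, pow_two, e1, one_pow, one_mul] at hk'
      exact hk'

theorem not_five_dvd_ker (Γ : Type) [Group Γ] [Finite Γ] (σ : Γ →* Co0)
    (hσ : Cfsg.IsStemExtension σ) : ¬ 5 ∣ Nat.card σ.ker := by
  obtain ⟨hb, hbb, hinv, htt, hQ, hwit⟩ := inv_facts (by norm_num) inv_five
  have hf := fusion_ok
  simp only [fusionOK, Bool.and_eq_true] at hf
  obtain ⟨⟨⟨⟨⟨⟨-, hq5⟩, -⟩, -⟩, -⟩, -⟩, -⟩ := hf
  have hq : elC 62 ^ 5 = 1 := by simpa [lprod, pow_succ, mul_assoc] using eq_of_eqG hq5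
  obtain ⟨hq1, hq2⟩ := hQ 0 (by decide +kernel)
  have hQb : ∀ x ∈ ({elC 62} : Set Co0), ∀ i, x * gens 63 3 i * x⁻¹ ∈
      Subgroup.closure (Set.range (gens 63 3)) := by
    rintro x rfl
    exact hq2
  refine InvertingOdd.not_dvd_ker (p := 5) (by norm_num) (by decide) (gens 63 3) (elC 61) ({elC 62} : Set Co0)
    hbb hb hinv htt (by rintro x rfl; exact hq1) hQb hwit
    (fun Δ _ _ τ hτ => InvertingOdd.local_cyclic hτ.2.1 hτ.1 _) ?_ σ hσ
  have hA : IsPGroup 5 (Subgroup.closure (Set.range (gens 63 3))) :=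
    isPGroup_closure (by rintro _ ⟨i, rfl⟩ _ ⟨j, rfl⟩; exact hbb i j) (by rintro _ ⟨i, rfl⟩; exact hb i)
  have hB : IsPGroup 5 (Subgroup.closure ({elC 62} : Set Co0)) :=
    isPGroup_closure (by rintro a rfl b rfl; rfl) (by rintro a rfl; exact hq)
  have hBA : Subgroup.closure ({elC 62} : Set Co0) ≤
      Subgroup.normalizer (Subgroup.closure (Set.range (gens 63 3)) : Set Co0) := by
    rw [Subgroup.closure_le]
    intro x hx
    exact mem_normalizer_of_conj (by rintro _ ⟨i, rfl⟩; exact hQb x hx i)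
  refine not_dvd_index card_eq_at.2.2.1 (by norm_num) (H := Subgroup.closure _) ?_ ?_
  · rw [Subgroup.closure_union, sup_comm]
    exact hB.to_sup_of_normal_right' hA hBA
  · obtain ⟨hm, hn, hl⟩ := vec_facts (v := Data.v_five) (by simp)
    refine le_card_of_reach hm hn hl counts.2.2.1 fun n hn' => Subgroup.subset_closure ?_
    simp only [List.mem_cons, List.not_mem_nil, or_false] at hn'
    rcases hn' with rfl | rfl | rfl | rfl
    exacts [Or.inr rfl, Or.inl ⟨0, rfl⟩, Or.inl ⟨1, rfl⟩, Or.inl ⟨2, rfl⟩]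

theorem not_seven_dvd_ker (Γ : Type) [Group Γ] [Finite Γ] (σ : Γ →* Co0)
    (hσ : Cfsg.IsStemExtension σ) : ¬ 7 ∣ Nat.card σ.ker := by
  have hf := fusion_ok
  simp only [fusionOK, Bool.and_eq_true] at hf
  obtain ⟨⟨⟨⟨⟨-, hxy⟩, hx7⟩, hy7⟩, hgx⟩, hgy⟩ := hf
  have hx : elC 69 ^ 7 = 1 := by simpa [lprod, pow_succ, mul_assoc] using eq_of_eqG hx7
  have hy : elC 70 ^ 7 = 1 := by simpa [lprod, pow_succ, mul_assoc] using eq_of_eqG hy7
  refine OddSylow.not_dvd_of_square hσ (p := 7) (by norm_num) (x := elC 69) (y := elC 70) (g := elC 71)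
    (a := 1) (b := 0) (c := 3) (d := 4) (comm_of_eqG hxy) hx ?_ ?_ (by decide) ?_
  · rw [conj_of_eqG (W := [69]) hgx]; simp [lprod]
  · rw [conj_of_eqG (W := [69, 69, 69, 70, 70, 70, 70]) hgy]; simp [lprod, pow_succ, mul_assoc]
  · refine not_dvd_index card_eq_at.2.2.2 (by norm_num) (isPGroup_closure ?_ ?_) ?_
    · rintro a (rfl | rfl) b (rfl | rfl)
      exacts [rfl, comm_of_eqG hxy, (comm_of_eqG hxy).symm, rfl]
    · rintro a (rfl | rfl)
      exacts [hx, hy]
    · obtain ⟨hm, hn, hl⟩ := vec_facts (v := Data.v_seven) (by simp)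
      refine le_card_of_reach hm hn hl counts.2.2.2.1 fun n hn' => Subgroup.subset_closure ?_
      simp only [List.mem_cons, List.not_mem_nil, or_false] at hn'
      rcases hn' with rfl | rfl
      exacts [Or.inl rfl, Or.inr rfl]

theorem stem_ker_eq_bot (Γ : Type) [Group Γ] [Finite Γ] (σ : Γ →* Co0)
    (hσ : Cfsg.IsStemExtension σ) : σ.ker = ⊥ := by
  refine Subgroup.eq_bot_of_card_eq _ ?_
  by_contra hne
  obtain ⟨p, hp, hd⟩ := Nat.exists_prime_and_dvd hne
  by_cases h2 : p = 2
  · subst h2; exact not_two_dvd Γ σ hσ hd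
  by_cases h3 : p = 3
  · subst h3; exact not_three_dvd_ker Γ σ hσ hd
  by_cases h5 : p = 5
  · subst h5; exact not_five_dvd_ker Γ σ hσ hd
  by_cases h7 : p = 7
  · subst h7; exact not_seven_dvd_ker Γ σ hσ hd
  refine not_dvd_card_ker_of_sq_not_dvd hσ hp (fun h => ?_) hd
  rw [natCard_Co0, show 8315553613086720000 = 2 ^ 22 * (3 ^ 9 * (5 ^ 4 * (7 ^ 2 * (11 * 13 * 23)))) by
    norm_num] at h
  have hco : ∀ q : ℕ, q.Prime → p ≠ q → ∀ k, Nat.Coprime (p ^ 2) (q ^ k) := fun q hq hpq k =>
    ((Nat.coprime_primes hp hq).2 hpq).pow 2 k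
  have h' := (hco 7 (by norm_num) h7 2).dvd_of_dvd_mul_left ((hco 5 (by norm_num) h5 4).dvd_of_dvd_mul_left
    ((hco 3 (by norm_num) h3 9).dvd_of_dvd_mul_left ((hco 2 (by norm_num) h2 22).dvd_of_dvd_mul_left h)))
  have hle : p ≤ 57 := by
    have := Nat.le_of_dvd (by norm_num) h'
    nlinarith
  have := hp.two_le
  interval_cases p <;> norm_num at h'

theorem negAut_mem_commutator : negAut ∈ commutator Co0 := by
  have h : ⁅elC 72, elC 34⁆ = negAut := by
    have hneg := neg_ok
    simp only [List.all_eq_true, Bool.and_eq_true] at hneg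
    have hswap : elC 72 * elC 34 = negAut * (elC 34 * elC 72) := by
      refine (inv_mul_eq_one.1 ((McLOut.eq_one_of_test fun i hi x hx => ?_) :
        (negAut * (elC 34 * elC 72))⁻¹ * (elC 72 * elC 34) = 1)).symm
      obtain ⟨y, hy, hyx, hk⟩ := McLOut.exists_testVec hi
      obtain rfl : y = x := Subtype.ext (hyx.trans hx.symm)
      rw [mul_smul, inv_smul_eq_iff]
      obtain ⟨-, h2, h3, h4⟩ := McLOut.testVecs_ok
      simp only [List.all_eq_true, decide_eq_true_eq] at h4
      have hmem : McLOut.Data.testVecs.getD i [] ∈ McLOut.Data.testVecs := by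
        rw [List.getD_eq_getElem _ _ (by omega)]; exact List.getElem_mem _
      obtain ⟨hm', he⟩ := hneg _ hmem
      have hkey : CfsgLib.Leech.key (negAut • y) =
          keyL ((McLOut.Data.testVecs.getD i []).map fun a => -a) := by
        refine congrArg keyL ?_
        refine List.ext_getElem (by rw [length_ofVec, List.length_map, h4 _ hmem]) fun j a b => ?_
        simp only [ofVec, List.getElem_map, List.getElem_range, coordVec_negAut, hx, toVec]
        rw [CfsgLib.Golay.idx_pt (by rwa [length_ofVec] at a), List.getD_eq_getElem _ _ (by simpa using b)]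
      have hy' : keyL (McLOut.Data.testVecs.getD i []) = CfsgLib.Leech.key y := by
        rw [hk, ← h2, List.getD_eq_getElem _ _ (by omega),
          List.getD_eq_getElem (d := 0) _ (by rw [List.length_map]; omega), List.getElem_map]
      rw [hy', ← hkey, evalW_spec _ hy, evalW_spec _ (by rw [sqNorm_smul', hy])] at he
      rw [lprod_two, lprod_two] at he
      rw [McLOut.key_inj (by rw [sqNorm_smul', hy]) (by rw [sqNorm_smul', sqNorm_smul', hy])
        (Nat.eq_of_beq_eq_true he), ← mul_smul,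
        ← Subgroup.mem_center_iff.1 negAut_mem_center (elC 34 * elC 72)]
    rw [commutatorElement_def, hswap]
    group
  rw [← h]
  exact Subgroup.commutator_mem_commutator (Subgroup.mem_top _) (Subgroup.mem_top _)

theorem commutator_Co0 : commutator Co0 = ⊤ := by
  refine top_le_iff.1 (CfsgLib.GolayStructure.commutator_sup_center ▸ sup_le le_rfl fun g hg => ?_)
  rcases center_co0 hg with rfl | rfl
  · exact one_mem _
  · exact negAut_mem_commutator

theorem hasCyclicSchurMultiplier_Co1 : Cfsg.HasCyclicSchurMultiplier Cfsg.Spor.Co1 2 := by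
  have hk : Nat.card (QuotientGroup.mk' (Subgroup.center Co0)).ker = 2 := by
    rw [QuotientGroup.ker_mk', natCard_center_Co0]
  have : Fact (Nat.Prime 2) := ⟨Nat.prime_two⟩
  exact hasCyclicSchurMultiplier_of_cover (QuotientGroup.mk' (Subgroup.center Co0))
    (QuotientGroup.mk'_surjective _) (by rw [QuotientGroup.ker_mk']) commutator_Co0
    (fun Γ _ _ ρ hρ => stem_ker_eq_bot Γ ρ hρ) (isCyclic_of_prime_card hk) hk

end CfsgLib.Mathieu.CoOneMult
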