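import Cfsg.Agent.Lib.Mathieu.CoOneMultGood
import Cfsg.Agent.Lib.Mathieu.McLOutEval

/-!
Words in checked matrices preserving the lattice, evaluated on packed keys, and the finite checks for the
multiplier of the first Conway group.
-/

set_option autoImplicit false
set_option maxRecDepth 100000

namespace CfsgLib.Mathieu.CoOneMult

open Cfsg CfsgLib.Leech CfsgLib.Fischer2 CfsgLib.SchurMult
open CfsgLib.Mathieu.McLOut (forceB forceB_eq key_inj exists_testVec eq_one_of_test testVecs_ok)

theorem matOf_ok (n : ℕ) : matOk (matOf n) = true := by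
  have := matOf_good n
  simp only [matGood, Bool.and_eq_true] at this
  exact this.1

theorem datOf_ok (n : ℕ) : dataOk (matOf n) (datOf n) = true := by
  have := matOf_good n
  simp only [matGood, Bool.and_eq_true] at this
  exact this.2

/-- The elements of the certificate. -/
noncomputable def elC (n : ℕ) : Co0 := matAut (matOf n) (matOf_ok n)

theorem key_elC (n : ℕ) {x : leechLattice} (hx : sqNorm (coordVec x) = 32) :
    stepKey (datOf n) (key x) = key (elC n • x) :=
  key_matAut (matOf_ok n) (datOf_ok n) hx

/-- The evaluation of a word on a key, with a continuation. -/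
noncomputable def evalW : List ℕ → ℕ → (ℕ → Bool) → Bool
  | [], k, c => c k
  | n :: W, k, c => evalW W k fun r => forceB (stepKey (datOf n) r) c

theorem evalW_spec : ∀ (W : List ℕ) {x : leechLattice}, sqNorm (coordVec x) = 32 →
    ∀ c : ℕ → Bool, evalW W (key x) c = c (key (lprod elC W • x))
  | [], x, _, c => by
    rw [lprod, one_smul]
    rfl
  | n :: W, x, hx, c => by
    show evalW W (key x) (fun r => forceB (stepKey (datOf n) r) c) = _
    rw [evalW_spec W hx, forceB_eq, lprod, mul_smul,
      key_elC n (by rw [sqNorm_smul', hx])]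

/-- Two words agree on the testing vectors. -/
noncomputable def eqG (U V : List ℕ) : Bool :=
  McLOut.Data.testKeys.all fun k => evalW U k fun r => evalW V k fun s => Nat.beq r s

theorem eq_of_eqG {U V : List ℕ} (h : eqG U V = true) : lprod elC U = lprod elC V := by
  refine (inv_mul_eq_one.1 ((eq_one_of_test fun i hi x hx => ?_) :
    (lprod elC V)⁻¹ * lprod elC U = 1)).symm
  obtain ⟨y, hy, hyx, hk⟩ := exists_testVec hi
  obtain rfl : y = x := Subtype.ext (hyx.trans hx.symm)
  have h1 := List.all_eq_true.1 h (key y) (by
    rw [hk, List.getD_eq_getElem _ _ (by rw [← testVecs_ok.2.1, List.length_map, testVecs_ok.2.2.1]; exact hi)]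
    exact List.getElem_mem _)
  rw [evalW_spec U hy, evalW_spec V hy] at h1
  rw [mul_smul, key_inj (by rw [sqNorm_smul', hy]) (by rw [sqNorm_smul', hy]) (Nat.eq_of_beq_eq_true h1),
    inv_smul_smul]

/-! ### Orbits -/

/-- Images under one element. -/
noncomputable def mapStep (D : List ℕ × ℕ) : List ℕ → List ℕ :=
  List.rec [] fun a _ r => forceList (stepKey D a) fun c => c :: r

/-- The images under the powers up to a given exponent. -/
noncomputable def powsL (D : List ℕ × ℕ) : ℕ → List ℕ → List ℕ
  | 0, L => L
  | r + 1, L => L ++ powsL D r (mapStep D L)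

/-- The keys met by products of powers in a fixed order. -/
noncomputable def reach (r : ℕ) : List ℕ → ℕ → List ℕ
  | [], k => [k]
  | n :: ns, k => powsL (datOf n) r (reach r ns k)

/-- A lower bound for an orbit. -/
noncomputable def reachCount (r : ℕ) (ns : List ℕ) (v : List ℤ) : ℕ :=
  countD 60 ((reach r ns (keyL v)).map hashKey)

theorem reach_spec {H : Subgroup Co0} {v : leechLattice} (hv : sqNorm (coordVec v) = 32)
    (r : ℕ) : ∀ ns : List ℕ, (∀ n ∈ ns, elC n ∈ H) → ∀ k ∈ reach r ns (key v),
      KeyIn {y | ∃ h ∈ H, h • v = y} k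
  | [], _, k, hk => ⟨v, ⟨1, H.one_mem, by rw [one_smul]⟩,
      (List.mem_singleton.1 hk).symm⟩
  | n :: ns, hns, k, hk => by
    set S := {y | ∃ h ∈ H, h • v = y}
    have hstep : ∀ j, KeyIn S j → KeyIn S (stepKey (datOf n) j) := by
      rintro _ ⟨_, ⟨h, hh, rfl⟩, rfl⟩
      refine ⟨_, ⟨elC n * h, H.mul_mem (hns n List.mem_cons_self) hh, rfl⟩, ?_⟩
      rw [mul_smul]
      exact (key_elC n (by rw [sqNorm_smul', hv])).symm
    have hforce : ∀ (x : ℕ) (f : ℕ → List ℕ), forceList x f = f x := fun x f => by cases x <;> rfl
    have hmap : ∀ L : List ℕ, (∀ j ∈ L, KeyIn S j) → ∀ j ∈ mapStep (datOf n) L, KeyIn S j := by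
      intro L
      induction L with
      | nil => intro _ j hj; simp [mapStep] at hj
      | cons a L ih =>
        intro hL j hj
        change j ∈ forceList (stepKey (datOf n) a) (fun c => c :: mapStep (datOf n) L) at hj
        rw [hforce] at hj
        rcases List.mem_cons.1 hj with rfl | hj
        · exact hstep a (hL a List.mem_cons_self)
        · exact ih (fun i hi => hL i (List.mem_cons_of_mem _ hi)) j hj
    have hpows : ∀ (m : ℕ) (L : List ℕ), (∀ j ∈ L, KeyIn S j) →
        ∀ j ∈ powsL (datOf n) m L, KeyIn S j := by
      intro m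
      induction m with
      | zero => intro L hL j hj; exact hL j hj
      | succ m ih =>
        intro L hL j hj
        rw [powsL] at hj
        rcases List.mem_append.1 hj with hj | hj
        · exact hL j hj
        · exact ih _ (hmap L hL) j hj
    exact hpows r _ (reach_spec hv r ns fun i hi => hns i (List.mem_cons_of_mem _ hi)) k hk

theorem le_card_of_reach {H : Subgroup Co0} {L : List ℤ} (hm : memTest L = true)
    (hn : dotL L L = 32) (hl : L.length = 24) {r : ℕ} {ns : List ℕ} {m : ℕ}
    (h : reachCount r ns L = m) (hns : ∀ n ∈ ns, elC n ∈ H) : m ≤ Nat.card H := by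
  classical
  have : Finite Co0 := finite_Co0
  set v : leechLattice := ofList L hm
  have hv : sqNorm (coordVec v) = 32 := by
    rw [coordVec_ofList, ← dotInt_self, dotInt_toVec hl hl, hn]
  have hk : key v = keyL L := by
    rw [key, coordVec_ofList]
    congr 1
    refine List.ext_getElem (by rw [length_ofVec, hl]) fun j a b => ?_
    simp only [ofVec, List.getElem_map, List.getElem_range, toVec]
    rw [CfsgLib.Golay.idx_pt (by rwa [length_ofVec] at a), List.getD_eq_getElem]
  set f : H → leechLattice := fun h => (h : Co0) • v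
  have := Fintype.ofFinite H
  calc m ≤ ((reach r ns (keyL L)).map hashKey).toFinset.card := h ▸ countD_le _ _
    _ ≤ (Finset.univ.image fun h : H => hashKey (key (f h))).card := Finset.card_le_card fun a ha => by
        simp only [List.mem_toFinset, List.mem_map] at ha
        obtain ⟨k, hk', rfl⟩ := ha
        rw [← hk] at hk'
        obtain ⟨_, ⟨g, hg, rfl⟩, rfl⟩ := reach_spec hv r ns hns k hk'
        exact Finset.mem_image.2 ⟨⟨g, hg⟩, Finset.mem_univ _, rfl⟩
    _ ≤ Finset.univ.card := Finset.card_image_le
    _ = Nat.card H := by rw [Finset.card_univ, Nat.card_eq_fintype_card]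

/-! ### The series -/

/-- An orbit of a vector under the later generators misses the image under the current one. -/
noncomputable def stepOK (n i : ℕ) (v : List ℤ) (O : List (List ℤ)) : Bool :=
  O.all (fun L => memTest L && decide (dotL L L = 32) && decide (L.length = 24)) && O.contains v &&
    (List.range n).all (fun j => decide (j ≤ i) || O.all fun L =>
      evalW [j] (keyL L) fun r => O.any fun L' => Nat.beq r (keyL L')) &&
    evalW [i] (keyL v) fun r => O.all fun L' => !Nat.beq r (keyL L')

theorem exists_of_good {L : List ℤ} (hm : memTest L = true) (hn : dotL L L = 32) (hl : L.length = 24) :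
    ∃ x : leechLattice, sqNorm (coordVec x) = 32 ∧ key x = keyL L := by
  refine ⟨ofList L hm, by rw [coordVec_ofList, ← dotInt_self, dotInt_toVec hl hl, hn], ?_⟩
  rw [key, coordVec_ofList]
  congr 1
  refine List.ext_getElem (by rw [length_ofVec, hl]) fun j a b => ?_
  simp only [ofVec, List.getElem_map, List.getElem_range, toVec]
  rw [CfsgLib.Golay.idx_pt (by rwa [length_ofVec] at a), List.getD_eq_getElem]

theorem notMem_of_stepOK {n i : ℕ} {v : List ℤ} {O : List (List ℤ)} (h : stepOK n i v O = true) :
    elC i ∉ Subgroup.closure (elC '' Set.Ioo i n) := by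
  simp only [stepOK, Bool.and_eq_true, List.all_eq_true, decide_eq_true_eq, List.mem_range,
    Bool.or_eq_true, List.contains_iff_mem] at h
  obtain ⟨⟨⟨hO, hv⟩, hcl⟩, hmiss⟩ := h
  have : Finite Co0 := finite_Co0
  set S : Set leechLattice := {y | sqNorm (coordVec y) = 32 ∧ ∃ L ∈ O, key y = keyL L}
  have hex : ∀ L ∈ O, ∃ x : leechLattice, sqNorm (coordVec x) = 32 ∧ key x = keyL L := fun L hL =>
    exists_of_good (hO L hL).1.1 (hO L hL).1.2 (hO L hL).2
  obtain ⟨x, hx, hk⟩ := hex v hv
  intro hmem
  have hstay : ∀ g ∈ Subgroup.closure (elC '' Set.Ioo i n), ∀ y ∈ S, g • y ∈ S := by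
    intro g hg
    rw [← Subgroup.mem_toSubmonoid, Subgroup.closure_toSubmonoid_of_finite] at hg
    induction hg using Submonoid.closure_induction with
    | mem z hz =>
      obtain ⟨j, ⟨hij, hjn⟩, rfl⟩ := hz
      rintro y ⟨hy, L, hL, hyk⟩
      have h1 := (hcl j hjn).resolve_left (by omega) L hL
      rw [← hyk, evalW_spec _ hy] at h1
      simp only [List.any_eq_true, lprod, mul_one] at h1
      obtain ⟨L', hL', he⟩ := h1
      exact ⟨by rw [sqNorm_smul', hy], L', hL', Nat.eq_of_beq_eq_true he⟩
    | one => intro y hy; simpa using hy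
    | mul a b _ _ ha hb =>
      intro y hy
      rw [mul_smul]
      exact ha _ (hb y hy)
  obtain ⟨-, L', hL', he⟩ := hstay _ hmem x ⟨hx, v, hv, hk⟩
  rw [← hk, evalW_spec _ hx] at hmiss
  simp only [List.all_eq_true, lprod, mul_one] at hmiss
  have := hmiss L' hL'
  rw [he] at this
  simp at this

/-! ### The checks -/

/-- Every step of the series is proper. -/
noncomputable def seriesOK : Bool :=
  (List.range 22).all fun i => stepOK 22 i (Data.stepWits.getD i ([], [])).1 (Data.stepWits.getD i ([], [])).2

theorem series_ok : seriesOK = true := by decide +kernel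

/-- The facts shared by the odd primes three and five: generators at `B + i` of order `p` inverted by the
element `T`, elements at `Q + k` centralised by it whose conjugation words lie in the generators, and the
witnesses for pairs. -/
noncomputable def invOK (p n B T Q : ℕ) (words : List (List (List ℕ)))
    (wits : List (ℕ × ℕ × ℕ × List ℕ)) : Bool :=
  (List.range n).all (fun i =>
    eqG (List.replicate p (B + i)) [] && eqG [T, B + i] (List.replicate (p - 1) (B + i) ++ [T]) &&
      (List.range n).all (fun j => eqG [B + i, B + j] [B + j, B + i]) &&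
        (List.range words.length).all fun k =>
          eqG [Q + k, B + i] ((words.getD k []).getD i [] ++ [Q + k]) &&
            ((words.getD k []).getD i []).all fun a => decide (B ≤ a) && decide (a < B + n)) &&
    eqG [T, T] [] && (List.range words.length).all (fun k => eqG [T, Q + k] [Q + k, T]) &&
    wits.all (fun w => decide (w.1 < n) && decide (w.2.1 < n) &&
      eqG [w.2.2.1, B + w.2.1] [B + w.2.1, w.2.2.1] &&
        eqG (w.2.2.1 :: w.2.2.2) (w.2.2.2 ++ [B + w.1, w.2.2.1]) &&
          w.2.2.2.all (fun a => decide (B ≤ a) && decide (a < B + n))) &&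
    (List.range n).all fun i => (List.range n).all fun j =>
      decide (i = j) || wits.any fun w => (w.1 == i && w.2.1 == j) || (w.1 == j && w.2.1 == i)

theorem inv_three : invOK 3 6 40 34 35 Data.qWordsThree Data.witsThree = true := by decide +kernel

theorem inv_five : invOK 5 3 63 61 62 [Data.qWordsFive] Data.witsFive = true := by decide +kernel

/-- The extraspecial group at the prime three with its fusion, and the square at the prime seven. -/
noncomputable def fusionOK : Bool :=
  eqG [35, 36] [37, 36, 35] && eqG [35, 35, 35] [] && eqG [36, 36, 36] [] && eqG [37, 37, 37] [] &&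
    eqG [35, 37] [37, 35] && eqG [36, 37] [37, 36] && eqG [38, 35] [35, 35, 38] &&
      eqG [38, 37] [37, 38] && eqG [39, 36] [36, 37, 37, 39] && eqG [39, 37] [37, 37, 39] &&
        eqG [62, 62, 62, 62, 62] [] && eqG [69, 70] [70, 69] &&
          eqG [69, 69, 69, 69, 69, 69, 69] [] && eqG [70, 70, 70, 70, 70, 70, 70] [] &&
            eqG [71, 69] [69, 71] && eqG [71, 70] [69, 69, 69, 70, 70, 70, 70, 71]

theorem fusion_ok : fusionOK = true := by decide +kernel

theorem counts : reachCount 2 [35, 36, 37] Data.v_q3 = 27 ∧
    reachCount 2 [40, 41, 42, 43, 44, 45] Data.v_b3 = 729 ∧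
    reachCount 4 [62, 63, 64, 65] Data.v_five = 625 ∧ reachCount 6 [69, 70] Data.v_seven = 49 ∧
    reachCount 2 [37] Data.v_q3 = 3 := by decide +kernel

theorem vecs_ok : [Data.v_q3, Data.v_b3, Data.v_five, Data.v_seven].all (fun v =>
    memTest v && decide (dotL v v = 32) && decide (v.length = 24)) = true := by
  decide +kernel

theorem neg_ok : McLOut.Data.testVecs.all (fun L => memTest (L.map fun a => -a) &&
    evalW [72, 34] (keyL L) fun r => evalW [34, 72] (keyL (L.map fun a => -a)) fun s => Nat.beq r s) =
      true := by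
  decide +kernel

end CfsgLib.Mathieu.CoOneMult
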