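import Cfsg.Agent.Lib.Mathieu.CoOneMultEval

/-!
The monomial letters of the certificate act by signed permutations of the coordinates, so the relations of
the collector are checked on codes; the equations of the collector are evaluated once.
-/

set_option autoImplicit false
set_option maxRecDepth 100000

namespace CfsgLib.Mathieu.CoOneMult

open Cfsg CfsgLib.Leech CfsgLib.Fischer2 CfsgLib.SchurMult
open CfsgLib.Golay (idx pt idx_pt pt_idx idx_lt)

/-- The signed entry of a row coded by `c`. -/
def signedRow (c : ℕ) : List ℤ :=
  (List.range 24).map fun j => if j = c % 24 then (if c < 24 then 8 else -8) else 0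

/-- The signed coordinate of a vector with code `c`. -/
def sval (x : GolayPt → ℤ) (c : ℕ) : ℤ := (if c < 24 then 1 else -1) * x (pt (c % 24))

/-- The opposite code. -/
def flipC (c : ℕ) : ℕ := if c < 24 then c + 24 else c - 24

/-- The code of a letter. -/
def codeOf (n : ℕ) : List ℕ := Data.codes.getD n []

/-- A code followed by another. -/
def compC (P Q : List ℕ) : List ℕ :=
  P.map fun a => if a < 24 then Q.getD a 0 else flipC (Q.getD (a - 24) 0)

/-- The code of a word. -/
def codeW (W : List ℕ) : List ℕ := W.foldr (fun n Q => compC (codeOf n) Q) (List.range 24)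

/-- The letters used in monomial words are monomial. -/
def monoOK : Bool :=
  (List.range 34).all fun n => matOf n == (codeOf n).map signedRow &&
    (codeOf n).length == 24 && (codeOf n).all fun c => decide (c < 48)

theorem mono_ok : monoOK = true := by decide +kernel

theorem signedRow_ok : ∀ (c : Fin 48) (q : GolayPt),
    toVec (signedRow c) q = if q = pt (c % 24) then (if (c : ℕ) < 24 then 8 else -8) else 0 := by
  decide +kernel

theorem dotInt_signedRow (x : GolayPt → ℤ) {c : ℕ} (hc : c < 48) :
    dotInt (toVec (signedRow c)) x = 8 * sval x c := by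
  have h : toVec (signedRow c) = fun q => if q = pt (c % 24) then (if c < 24 then 8 else -8) else 0 :=
    funext fun q => signedRow_ok ⟨c, hc⟩ q
  rw [h, dotInt, Finset.sum_eq_single (pt (c % 24))]
  · simp only [if_true, sval]
    split <;> ring
  · intro q _ hq
    simp [hq]
  · simp

theorem coordVec_letter {n : ℕ} (hn : n < 34) (x : leechLattice) (p : GolayPt) :
    coordVec (elC n • x) p = sval (coordVec x) ((codeOf n).getD (idx p) 0) := by
  have h := mono_ok
  simp only [monoOK, List.all_eq_true, List.mem_range, Bool.and_eq_true, beq_iff_eq,
    decide_eq_true_eq] at h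
  obtain ⟨⟨hM, hl⟩, hc⟩ := h n hn
  have hp : idx p < (codeOf n).length := by rw [hl]; exact idx_lt p
  rw [elC, coordVec_matAut, matAct, matApply, hM, List.getD_eq_getElem _ _ (by simpa using hp),
    List.getElem_map, List.getD_eq_getElem _ _ hp, dotInt_signedRow _ (hc _ (List.getElem_mem hp)),
    Int.mul_ediv_cancel_left _ (by norm_num)]

theorem codeW_lt : ∀ (W : List ℕ), (∀ m ∈ W, m < 34) → ∀ a ∈ codeW W, a < 48 := by
  intro W
  induction W with
  | nil => intro _ a ha; simp [codeW] at ha; omega
  | cons m W ih =>
    intro hW a ha
    have h := mono_ok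
    simp only [monoOK, List.all_eq_true, List.mem_range, Bool.and_eq_true, beq_iff_eq,
      decide_eq_true_eq] at h
    obtain ⟨⟨-, -⟩, hcm⟩ := h m (hW m List.mem_cons_self)
    change a ∈ compC (codeOf m) (codeW W) at ha
    simp only [compC, List.mem_map] at ha
    obtain ⟨b, hb, rfl⟩ := ha
    have hget : ∀ i, (codeW W).getD i 0 < 48 := fun i => by
      by_cases hi : i < (codeW W).length
      · rw [List.getD_eq_getElem _ _ hi]
        exact ih (fun k hk => hW k (List.mem_cons_of_mem _ hk)) _ (List.getElem_mem hi)
      · rw [List.getD_eq_default _ _ (by omega)]; norm_num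
    split
    · exact hget _
    · have := hget (b - 24); unfold flipC; split <;> omega

theorem coordVec_word : ∀ (W : List ℕ), (∀ n ∈ W, n < 34) → ∀ (x : leechLattice) (p : GolayPt),
    (codeW W).length = 24 ∧ coordVec (lprod elC W • x) p = sval (coordVec x) ((codeW W).getD (idx p) 0)
  | [], _, x, p => by
    refine ⟨by simp [codeW], ?_⟩
    rw [lprod, one_smul, codeW, List.foldr_nil, List.getD_eq_getElem _ _ (by simpa using idx_lt p),
      List.getElem_range, sval, if_pos (idx_lt p), one_mul, Nat.mod_eq_of_lt (idx_lt p), pt_idx]
  | n :: W, hW, x, p => by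
    have hn := hW n List.mem_cons_self
    have ih := coordVec_word W (fun m hm => hW m (List.mem_cons_of_mem _ hm))
    have h := mono_ok
    simp only [monoOK, List.all_eq_true, List.mem_range, Bool.and_eq_true, beq_iff_eq,
      decide_eq_true_eq] at h
    obtain ⟨⟨-, hl⟩, hc⟩ := h n hn
    have hp : idx p < (codeOf n).length := by rw [hl]; exact idx_lt p
    refine ⟨by show (compC (codeOf n) (codeW W)).length = 24; simp [compC, hl], ?_⟩
    rw [lprod, mul_smul, coordVec_letter hn, List.getD_eq_getElem _ _ hp,
      show codeW (n :: W) = compC (codeOf n) (codeW W) from rfl,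
      List.getD_eq_getElem _ _ (by simpa [compC] using hp)]
    set a := (codeOf n)[idx p]
    have ha : a < 48 := hc _ (List.getElem_mem hp)
    simp only [compC, List.getElem_map]
    show _ = sval (coordVec x) (if a < 24 then (codeW W).getD a 0 else flipC ((codeW W).getD (a - 24) 0))
    obtain ⟨hlen, hval⟩ := ih x (pt (a % 24))
    rw [idx_pt (Nat.mod_lt _ (by norm_num))] at hval
    rw [sval, hval]
    by_cases h24 : a < 24
    · rw [if_pos h24, if_pos h24, one_mul, Nat.mod_eq_of_lt h24]
    · rw [if_neg h24, if_neg h24, show a % 24 = a - 24 by omega, neg_one_mul, sval, sval, flipC]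
      set e := (codeW W).getD (a - 24) 0
      by_cases he : e < 24
      · rw [if_pos he, if_pos he, if_neg (by omega), show (e + 24) % 24 = e % 24 by omega]; ring
      · rw [if_neg he, if_neg he]
        by_cases he' : e - 24 < 24
        · rw [if_pos he', show (e - 24) % 24 = e % 24 by omega]; ring
        · exact absurd he' (by
            simp only [e]
            have hb := codeW_lt
            rw [List.getD_eq_getElem _ _ (by omega)]
            have := hb W (fun m hm => hW m (List.mem_cons_of_mem _ hm)) _
              (List.getElem_mem (h := show a - 24 < (codeW W).length by omega))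
            omega)

/-- A code packed in a number. -/
def packC : List ℕ → ℕ
  | [] => 0
  | a :: L => a + 64 * packC L

/-- Strict evaluation followed by a continuation. -/
noncomputable def forceN (x : ℕ) (k : ℕ → ℕ) : ℕ :=
  Nat.rec (k Nat.zero) (fun m _ => k (Nat.succ m)) x

/-- A code followed by a packed one. -/
def compN (P : List ℕ) (Q : ℕ) : ℕ :=
  P.foldr (fun a r =>
    (if a < 24 then Q / 64 ^ a % 64 else flipC (Q / 64 ^ (a - 24) % 64)) + 64 * r) 0

/-- The packed code of a word. -/
noncomputable def natW : List ℕ → ℕ :=
  List.rec (packC (List.range 24)) fun n _ r => forceN r fun q => compN (codeOf n) q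

theorem digit_pack : ∀ (L : List ℕ), (∀ x ∈ L, x < 64) → ∀ i, packC L / 64 ^ i % 64 = L.getD i 0
  | [], _, i => by simp [packC]
  | a :: L, h, 0 => by
    have := h a List.mem_cons_self
    simp only [packC, pow_zero, Nat.div_one, List.getD_cons_zero]
    omega
  | a :: L, h, i + 1 => by
    have := h a List.mem_cons_self
    rw [List.getD_cons_succ, ← digit_pack L (fun x hx => h x (List.mem_cons_of_mem _ hx)) i, pow_succ',
      ← Nat.div_div_eq_div_mul, packC, show (a + 64 * packC L) / 64 = packC L by omega]

theorem natW_eq : ∀ (W : List ℕ), (∀ n ∈ W, n < 34) → natW W = packC (codeW W)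
  | [], _ => rfl
  | n :: W, hW => by
    have hW' : ∀ m ∈ W, m < 34 := fun m hm => hW m (List.mem_cons_of_mem _ hm)
    have hb : ∀ x ∈ codeW W, x < 64 := fun x hx => by have := codeW_lt W hW' x hx; omega
    show forceN (natW W) (fun q => compN (codeOf n) q) = _
    rw [show forceN (natW W) (fun q => compN (codeOf n) q) = compN (codeOf n) (natW W) by
      cases natW W <;> rfl, natW_eq W hW']
    show compN (codeOf n) (packC (codeW W)) = packC (compC (codeOf n) (codeW W))
    induction codeOf n with
    | nil => rfl
    | cons a P ih =>
      rw [compN, List.foldr_cons, compC, List.map_cons, packC, digit_pack _ hb, digit_pack _ hb]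
      rw [compN, compC] at ih
      rw [ih]

/-- Two monomial words with the same code. -/
noncomputable def eqC (U V : List ℕ) : Bool :=
  U.all (fun n => decide (n < 34)) && V.all (fun n => decide (n < 34)) && Nat.beq (natW U) (natW V)

theorem eq_of_eqC {U V : List ℕ} (h : eqC U V = true) : lprod elC U = lprod elC V := by
  simp only [eqC, Bool.and_eq_true, List.all_eq_true, decide_eq_true_eq] at h
  obtain ⟨⟨hU, hV⟩, he⟩ := h
  have he' := Nat.eq_of_beq_eq_true he
  rw [natW_eq U hU, natW_eq V hV] at he'
  refine (inv_mul_eq_one.1 ((McLOut.eq_one_of_test fun i _ x _ => ?_) :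
    (lprod elC V)⁻¹ * lprod elC U = 1)).symm
  rw [mul_smul, inv_smul_eq_iff]
  refine Subtype.ext (funext fun p => ?_)
  show coordVec (lprod elC U • x) p = coordVec (lprod elC V • x) p
  rw [(coordVec_word U hU x p).2, (coordVec_word V hV x p).2,
    ← digit_pack _ (fun a ha => by have := codeW_lt U hU a ha; omega), he',
    digit_pack _ (fun a ha => by have := codeW_lt V hV a ha; omega)]

/-! ### The collector -/

/-- The relations of the collector hold. -/
noncomputable def relsOK : Bool := Data.col.rels.all fun r => eqC r.1 r.2

/-- The conjugations of the collector hold. -/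
noncomputable def conjsOK : Bool :=
  Data.col.eqs.all fun e =>
    match e with
    | .assoc pre _ => pre.all fun i => decide (i < 22)
    | .conj k m _ => m.all fun q => decide (q.1 < 2 ^ 22) && decide (q.2 < 2 ^ 22) &&
        eqC ((22 + k) :: Collector.digits 22 q.1) (Collector.digits 22 q.2 ++ [22 + k])

/-- Sum of selected masks. -/
def selNat : List ℕ → ℕ → ℕ → ℕ
  | [], _, _ => 0
  | m :: ms, s, k => bif s.testBit k then m ^^^ selNat ms s (k + 1) else selNat ms s (k + 1)

theorem selMask_eq (c : LazyCollector) (s : ℕ) : ∀ (es : List TailEq) (ms : List ℕ) (k : ℕ),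
    es.map c.eqMask = ms.map some → c.selMask es s k = some (selNat ms s k)
  | [], [], _, _ => rfl
  | [], _ :: _, _, h => by simp at h
  | _ :: _, [], _, h => by simp at h
  | e :: es, m :: ms, k, h => by
    simp only [List.map_cons, List.cons.injEq] at h
    rw [LazyCollector.selMask, selMask_eq c s es ms (k + 1) h.2, selNat]
    cases s.testBit k <;> simp [h.1]

/-- Every tail is a gauge change, from the masks of the equations. -/
def solvedFast : Bool :=
  Data.col.shapeOK &&
    Data.col.rels.all (fun r => r.1.all (fun i => decide (i < Data.col.n)) &&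
      r.2.all fun i => decide (i < Data.col.n)) &&
    (List.range Data.col.rels.length).all fun v =>
      selNat Data.eqMasks (Data.col.comb.getD v 0) 0 ==
        2 ^ v ^^^ Data.col.gaugeMask ((Data.col.rels.getD v ([], [])).1 ++ (Data.col.rels.getD v ([], [])).2)

theorem collector_rels : relsOK = true := by decide +kernel

theorem collector_conjs : conjsOK = true := by decide +kernel

/-- The masks of a slice of the equations. -/
def maskSlice (a m : ℕ) : Bool :=
  ((Data.col.eqs.drop a).take m).map Data.col.eqMask == ((Data.eqMasks.drop a).take m).map some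

theorem slice_step {a m : ℕ} (h : maskSlice a m = true)
    (hr : (Data.col.eqs.drop (a + m)).map Data.col.eqMask = (Data.eqMasks.drop (a + m)).map some) :
    (Data.col.eqs.drop a).map Data.col.eqMask = (Data.eqMasks.drop a).map some := by
  rw [← List.take_append_drop m (Data.col.eqs.drop a), ← List.take_append_drop m (Data.eqMasks.drop a),
    List.map_append, List.map_append, List.drop_drop, List.drop_drop, beq_iff_eq.1 h, hr]

theorem slice0 : maskSlice 0 40 = true := by decide +kernel

theorem slice40 : maskSlice 40 40 = true := by decide +kernel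

theorem slice80 : maskSlice 80 40 = true := by decide +kernel

theorem slice120 : maskSlice 120 40 = true := by decide +kernel

theorem slice160 : maskSlice 160 40 = true := by decide +kernel

theorem slice200 : maskSlice 200 12 = true := by decide +kernel

theorem slice212 : maskSlice 212 8 = true := by decide +kernel

theorem slice220 : maskSlice 220 8 = true := by decide +kernel

theorem slice228 : maskSlice 228 8 = true := by decide +kernel

theorem masks_ok : (Data.col.eqs.map Data.col.eqMask == Data.eqMasks.map some) = true :=
  beq_iff_eq.2 (slice_step slice0 (slice_step slice40 (slice_step slice80 (slice_step slice120 (slice_step slice160 (slice_step slice200 (slice_step slice212 (slice_step slice220 (slice_step slice228 (by decide +kernel))))))))))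

theorem solved_fast : solvedFast = true := by decide +kernel

theorem collector_solved : Data.col.solvedOK = true := by
  have h := solved_fast
  simp only [solvedFast, Bool.and_eq_true, List.all_eq_true, List.mem_range, beq_iff_eq] at h
  simp only [LazyCollector.solvedOK, Bool.and_eq_true, List.all_eq_true, List.mem_range, beq_iff_eq]
  refine ⟨h.1, fun v hv => ?_⟩
  rw [selMask_eq Data.col _ _ _ 0 (beq_iff_eq.1 masks_ok), h.2 v hv]

end CfsgLib.Mathieu.CoOneMult
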