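import Cfsg.Agent.Lib.Fischer.OctadCo1
import Cfsg.Agent.Lib.Fischer2.LeechCoTwo
import Cfsg.Agent.Lib.ClassicalForms.Ortho.CharTwo
import Cfsg.Agent.Lib.ClassicalForms.Exceptional.Common
import Cfsg.Agent.Lib.ClassicalLinear.SympSimple

/-!
An involution of the second Conway group whose centraliser is an extension of an extraspecial group
of order `2 ^ 9` by the symplectic group in dimension six over two elements.
-/

set_option autoImplicit false

namespace CfsgLib.Mathieu.CoTwoInvolution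

open Cfsg CfsgLib.Leech CfsgLib.Fischer2 CfsgLib.Fischer.OctadLattice CfsgLib.ClassicalForms
open CfsgLib.Fischer.OrthCocycle (reflTwo act_reflTwo)
open scoped Matrix

local notation "V8" => (Fin 4 ⊕ Fin 4 → ZMod 2)
local notation "U7" => (Unit ⊕ (Fin 3 ⊕ Fin 3) → ZMod 2)

/-- Six vectors giving a symplectic basis orthogonal to the anisotropic vector. -/
def efVec : Fin 3 ⊕ Fin 3 → V8 :=
  Sum.elim ![Sum.elim ![0, 0, 0, 0] ![0, 0, 1, 0], Sum.elim ![0, 0, 0, 0] ![0, 1, 0, 0],
      Sum.elim ![0, 0, 0, 0] ![1, 0, 0, 1]]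
    ![Sum.elim ![0, 0, 1, 0] ![0, 0, 0, 0], Sum.elim ![0, 1, 0, 0] ![0, 0, 0, 0],
      Sum.elim ![0, 0, 0, 1] ![1, 0, 0, 0]]

/-- The anisotropic vector. -/
def wVec : V8 := Sum.elim ![1, 0, 0, 1] ![0, 0, 0, 1]

/-- A vector pairing to one with the anisotropic vector and orthogonal to the basis. -/
def eVec : V8 := Sum.elim ![0, 0, 0, 0] ![1, 0, 0, 0]

theorem proj_basis_zero : proj (basis8 0) = wVec := by decide

/-- The embedding of the orthogonal complement. -/
def emb : U7 →ₗ[ZMod 2] V8 :=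
  Fintype.linearCombination (ZMod 2) (Sum.elim (fun _ => wVec) efVec)

theorem emb_apply (x : U7) : emb x = x (.inl ()) • wVec + ∑ i, x (.inr i) • efVec i := by
  rw [emb, Fintype.linearCombination_apply, Fintype.sum_sum_type]; simp

/-- The coordinates on the orthogonal complement. -/
def coord (v : V8) : U7 :=
  Sum.elim (fun _ => QuadraticMap.polar (Cfsg.quadFormPlus 4 (ZMod 2)) v eVec)
    fun i => QuadraticMap.polar (Cfsg.quadFormPlus 4 (ZMod 2)) v (efVec i.swap)

theorem emb_facts : (∀ x : U7,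
    Cfsg.quadFormPlus 4 (ZMod 2) (x (.inl ()) • wVec + ∑ i, x (.inr i) • efVec i) = Cfsg.quadFormOdd 3 (ZMod 2) x) ∧
    (∀ x : U7, coord (x (.inl ()) • wVec + ∑ i, x (.inr i) • efVec i) = x) := by decide +kernel

theorem emb_coord_fact : ∀ v : V8, QuadraticMap.polar (Cfsg.quadFormPlus 4 (ZMod 2)) v wVec = 0 →
    coord v (.inl ()) • wVec + ∑ i, coord v (.inr i) • efVec i = v := by decide +kernel

theorem partner_fact : ∀ y : V8,
    (∀ i, QuadraticMap.polar (Cfsg.quadFormPlus 4 (ZMod 2)) y (efVec i) =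
      QuadraticMap.polar (Cfsg.quadFormPlus 4 (ZMod 2)) eVec (efVec i)) →
    QuadraticMap.polar (Cfsg.quadFormPlus 4 (ZMod 2)) y wVec = 1 → y = eVec ∨ y = eVec + wVec := by decide +kernel

theorem eVec_wVec : QuadraticMap.polar (Cfsg.quadFormPlus 4 (ZMod 2)) eVec wVec = 1 := by decide

theorem qF_emb (x : U7) : qF (emb x) = qOdd 3 (ZMod 2) x := by
  rw [qF_coe, emb_apply, qOdd_apply]; exact emb_facts.1 x

theorem coord_emb (x : U7) : coord (emb x) = x := by rw [emb_apply]; exact emb_facts.2 x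

theorem emb_coord {v : V8} (h : CfsgLib.OrthGen.pf qF v wVec = 0) : emb (coord v) = v := by
  rw [emb_apply]; exact emb_coord_fact v (by rwa [CfsgLib.OrthGen.pf, qF_coe] at h)

theorem pf_emb (x : U7) : CfsgLib.OrthGen.pf qF (emb x) wVec = 0 := by
  rw [emb_apply, CfsgLib.OrthGen.pf, qF_coe]
  revert x
  decide +kernel

theorem pf_qF (x y : V8) :
    CfsgLib.OrthGen.pf qF x y = QuadraticMap.polar (Cfsg.quadFormPlus 4 (ZMod 2)) x y := by
  rw [CfsgLib.OrthGen.pf, qF_coe]

theorem qF_wVec : qF wVec = 1 := by rw [qF_coe]; decide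

/-- The stabiliser of the anisotropic vector. -/
def stW : Subgroup OG where
  carrier := {g | CfsgLib.OrthGen.act qF g wVec = wVec}
  one_mem' := CfsgLib.OrthGen.act_one (Q := qF) wVec
  mul_mem' := fun {g h} hg hh => by
    show CfsgLib.OrthGen.act qF (g * h) wVec = wVec
    rw [CfsgLib.OrthGen.act_mul, hh, hg]
  inv_mem' := fun {g} hg => by
    show CfsgLib.OrthGen.act qF g⁻¹ wVec = wVec
    conv_lhs => rw [← hg, CfsgLib.OrthGen.act_inv_act]

/-- The linear map of an isometry. -/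
def actLin (g : OG) : V8 →ₗ[ZMod 2] V8 where
  toFun := CfsgLib.OrthGen.act qF g
  map_add' := CfsgLib.OrthGen.act_add g
  map_smul' c x := CfsgLib.OrthGen.act_smul g c x

/-- The coordinates, linearly. -/
def coordLin : V8 →ₗ[ZMod 2] U7 where
  toFun := coord
  map_add' v w := by
    funext i
    rcases i with i | i <;>
      simp [coord, ← qF_coe, QuadraticMap.polar_add_left qF]
  map_smul' c v := by
    funext i
    rcases i with i | i <;>
      simp [coord, ← qF_coe, QuadraticMap.polar_smul_left qF]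

theorem pf_stW {g : OG} (hg : g ∈ stW) (v : V8) :
    CfsgLib.OrthGen.pf qF (CfsgLib.OrthGen.act qF g v) wVec = CfsgLib.OrthGen.pf qF v wVec := by
  conv_lhs => rw [← (show CfsgLib.OrthGen.act qF g wVec = wVec from hg)]
  exact CfsgLib.OrthGen.pf_act g v wVec

theorem act_emb {g : OG} (hg : g ∈ stW) (x : U7) :
    emb (coord (CfsgLib.OrthGen.act qF g (emb x))) = CfsgLib.OrthGen.act qF g (emb x) :=
  emb_coord (by rw [pf_stW hg, pf_emb])

/-- The induced map on the complement. -/
def complLin (g : stW) : U7 →ₗ[ZMod 2] U7 := coordLin ∘ₗ actLin g.1 ∘ₗ emb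

theorem complLin_apply (g : stW) (x : U7) : complLin g x = coord (CfsgLib.OrthGen.act qF g.1 (emb x)) := rfl

theorem complLin_mul (g h : stW) (x : U7) : complLin (g * h) x = complLin g (complLin h x) := by
  rw [complLin_apply, complLin_apply, complLin_apply, act_emb h.2, Subgroup.coe_mul, CfsgLib.OrthGen.act_mul]

theorem complLin_one (x : U7) : complLin 1 x = x := by
  rw [complLin_apply, Subgroup.coe_one, CfsgLib.OrthGen.act_one, coord_emb]

theorem complLin_form (g : stW) (x : U7) : qOdd 3 (ZMod 2) (complLin g x) = qOdd 3 (ZMod 2) x := by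
  rw [← qF_emb, ← qF_emb, complLin_apply, act_emb g.2]
  exact CfsgLib.OrthGen.Q_act _ _

/-- The induced isometry of the complement. -/
noncomputable def complOrth : stW →* orth (qOdd 3 (ZMod 2)) :=
  CfsgLib.ClassicalForms.orthHom complLin complLin_one complLin_mul complLin_form

theorem complOrth_apply (g : stW) (x : U7) :
    (complOrth g : U7 ≃ₗ[ZMod 2] U7) x = coord (CfsgLib.OrthGen.act qF g.1 (emb x)) :=
  (orthHom_apply complLin complLin_one complLin_mul complLin_form g x).trans (complLin_apply g x)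

/-- The map to the symplectic group. -/
noncomputable def toSymp : stW →* Matrix.symplecticGroup (Fin 3) (ZMod 2) := toSp.comp complOrth

theorem r_mem_stW (v : V8) (hv : qF v = 1) (hw : CfsgLib.OrthGen.pf qF v wVec = 0) :
    reflTwo qF v hv ∈ stW := by
  show CfsgLib.OrthGen.act qF _ wVec = wVec
  rw [act_reflTwo, hw, zero_smul, add_zero]

theorem reflTwo_w : reflTwo qF wVec qF_wVec = r₁ := by
  simp only [r₁, proj_basis_zero]

theorem r₁_mem : r₁ ∈ stW := by
  rw [← reflTwo_w]
  refine r_mem_stW _ qF_wVec ?_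
  rw [CfsgLib.OrthGen.pf, qF_coe]; decide

theorem decompose (v : V8) : ∃ x : U7, v = emb x ∨ v = emb x + eVec := by
  have h2 : ∀ a : ZMod 2, a = 0 ∨ a = 1 := by decide
  rcases h2 (CfsgLib.OrthGen.pf qF v wVec) with h | h
  · exact ⟨coord v, Or.inl (emb_coord h).symm⟩
  · refine ⟨coord (v + eVec), Or.inr ?_⟩
    rw [emb_coord (by
      rw [CfsgLib.OrthGen.pf] at h ⊢
      rw [QuadraticMap.polar_add_left, h, qF_coe, eVec_wVec]; decide)]
    rw [add_assoc, show eVec + eVec = (0 : V8) by decide, add_zero]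

theorem ker_toSymp {g : stW} (h : toSymp g = 1) : (g : OG) = 1 ∨ (g : OG) = r₁ := by
  have h1 : complOrth g = 1 := toSp_bijective.1 (h.trans (map_one toSp).symm)
  have hfix : ∀ x, CfsgLib.OrthGen.act qF g.1 (emb x) = emb x := fun x => by
    rw [← act_emb g.2]
    congr 1
    rw [← complOrth_apply, h1, orth_one_apply]
  have hpart : CfsgLib.OrthGen.act qF g.1 eVec = eVec ∨ CfsgLib.OrthGen.act qF g.1 eVec = eVec + wVec := by
    refine partner_fact _ (fun i => ?_) ?_
    · have he : emb (Pi.single (.inr i) 1) = efVec i := by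
        rw [emb_apply]; simp [Pi.single_apply]
      have := CfsgLib.OrthGen.pf_act g.1 eVec (emb (Pi.single (.inr i) 1))
      rwa [hfix, he, pf_qF, pf_qF] at this
    · have := pf_stW g.2 eVec
      rw [pf_qF, pf_qF] at this
      rw [this]; exact eVec_wVec
  rcases hpart with he | he
  · refine Or.inl (CfsgLib.OrthGen.ext_act fun v => ?_)
    rw [CfsgLib.OrthGen.act_one]
    obtain ⟨x, rfl | rfl⟩ := decompose v
    · exact hfix x
    · rw [CfsgLib.OrthGen.act_add, hfix, he]
  · refine Or.inr (CfsgLib.OrthGen.ext_act fun v => ?_)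
    rw [← reflTwo_w, act_reflTwo, CfsgLib.OrthGen.pf_comm]
    obtain ⟨x, rfl | rfl⟩ := decompose v
    · rw [hfix, pf_emb, zero_smul, add_zero]
    · rw [CfsgLib.OrthGen.act_add, hfix, he,
        show CfsgLib.OrthGen.pf qF (emb x + eVec) wVec = 1 from ?_, one_smul, add_assoc]
      rw [CfsgLib.OrthGen.pf, QuadraticMap.polar_add_left]
      show CfsgLib.OrthGen.pf qF (emb x) wVec + CfsgLib.OrthGen.pf qF eVec wVec = 1
      rw [pf_emb, pf_qF, eVec_wVec, zero_add]

theorem toSymp_r₁ : toSymp ⟨r₁, r₁_mem⟩ = 1 := by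
  rw [show toSymp ⟨r₁, r₁_mem⟩ = toSp (complOrth ⟨r₁, r₁_mem⟩) from rfl]
  rw [show complOrth ⟨r₁, r₁_mem⟩ = 1 from orth_ext fun x => ?_, map_one]
  rw [complOrth_apply, orth_one_apply]
  show coord (CfsgLib.OrthGen.act qF r₁ (emb x)) = x
  rw [← reflTwo_w, act_reflTwo, CfsgLib.OrthGen.pf_comm, pf_emb, zero_smul, add_zero, coord_emb]

theorem toSymp_surjective : Function.Surjective toSymp := by
  rw [← MonoidHom.range_eq_top, eq_top_iff, ← CfsgLib.ClassicalLinear.closure_spT_eq_top,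
    Subgroup.closure_le]
  rintro _ ⟨u, c, rfl⟩
  rcases (show ∀ c : ZMod 2, c = 0 ∨ c = 1 by decide) c with rfl | rfl
  · rw [CfsgLib.ClassicalLinear.spT_zero]; exact one_mem _
  set r : U7 := ovec (1 + hyp u) u with hr
  have hq : qF (emb r) = 1 := by
    rw [qF_emb, hr, qOdd_ovec]
    exact (show ∀ a : ZMod 2, (1 + a) ^ 2 + a = 1 by decide) (hyp u)
  refine ⟨⟨reflTwo qF (emb r) hq, r_mem_stW _ hq (pf_emb r)⟩, CfsgLib.ClassicalLinear.sp_ext fun x => ?_⟩
  show toSp _ • x = _
  rw [toSp_smul, CfsgLib.ClassicalLinear.spT_smul, one_mul]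
  funext i
  show (complOrth _ : U7 ≃ₗ[ZMod 2] U7) (ovec 0 x) (Sum.inr i) = _
  rw [complOrth_apply, act_reflTwo]
  have hp : CfsgLib.OrthGen.pf qF (emb r) (emb (ovec 0 x)) = Cfsg.sympForm 3 (ZMod 2) x u := by
    rw [CfsgLib.OrthGen.pf_comm, hr, ← polar_ovec 0 (1 + hyp u) x u, CfsgLib.OrthGen.pf, QuadraticMap.polar,
      ← map_add, qF_emb, qF_emb, qF_emb]
    rfl
  rw [hp, ← map_smul, ← map_add, coord_emb, hr, ovec_smul, ovec_add]
  rfl

/-- The stabiliser in the commutator subgroup. -/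
def stComm : Subgroup OG := commutator OG ⊓ stW

/-- Its isomorphism with the symplectic group, as a homomorphism. -/
noncomputable def commToSymp : stComm →* Matrix.symplecticGroup (Fin 3) (ZMod 2) :=
  toSymp.comp (Subgroup.inclusion inf_le_right)

theorem r₁_not_comm : r₁ ∉ commutator OG := fun h => r₁_not_mem (range_psi.ge h)

theorem commToSymp_bijective : Function.Bijective commToSymp := by
  refine ⟨(injective_iff_map_eq_one _).2 fun g hg => ?_, fun y => ?_⟩
  · rcases ker_toSymp hg with h | h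
    · exact Subtype.ext h
    · exact absurd (h ▸ g.2.1) r₁_not_comm
  · obtain ⟨g, rfl⟩ := toSymp_surjective y
    rcases commutator_le_range.2 g.1 with hg | hg
    · exact ⟨⟨g.1, hg, g.2⟩, rfl⟩
    · have h1 := (commutator_le_range.2 r₁).resolve_left r₁_not_comm
      refine ⟨⟨g.1 * r₁⁻¹, ?_, stW.mul_mem g.2 (stW.inv_mem r₁_mem)⟩, ?_⟩
      · have : g.1 * r₀ * (r₁ * r₀)⁻¹ ∈ commutator OG := (commutator OG).mul_mem hg ((commutator OG).inv_mem h1)
        rwa [mul_inv_rev, mul_assoc, mul_inv_cancel_left] at this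
      · show toSymp (g * ⟨r₁, r₁_mem⟩⁻¹) = toSymp g
        rw [map_mul, map_inv, toSymp_r₁, inv_one, mul_one]

theorem symp_normal_two {N : Subgroup (Matrix.symplecticGroup (Fin 3) (ZMod 2))} (hN : N.Normal)
    (h2 : IsPGroup 2 N) : N = ⊥ := by
  have hc : Subgroup.center (Matrix.symplecticGroup (Fin 3) (ZMod 2)) = ⊥ := by
    refine (Subgroup.eq_bot_iff_forall _).2 fun g hg => Subtype.ext ?_
    rcases (CfsgLib.ClassicalLinear.mem_center_sp_iff (by norm_num)).1 hg with h | h
    · exact h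
    · rw [h]; funext i j; exact ZMod.neg_eq_self_mod_two _
  have hs : IsSimpleGroup (Cfsg.PSp 3 (ZMod 2)) :=
    CfsgLib.ClassicalLinear.isSimpleGroup_psp (by norm_num) (Or.inl le_rfl)
  have e : Cfsg.PSp 3 (ZMod 2) ≃* Matrix.symplecticGroup (Fin 3) (ZMod 2) :=
    (QuotientGroup.quotientMulEquivOfEq hc).trans QuotientGroup.quotientBot
  have := e.symm.isSimpleGroup
  rcases hN.eq_bot_or_eq_top with h | h
  · exact h
  · subst h
    have : Fact (Nat.Prime 2) := ⟨Nat.prime_two⟩
    have := (h2.of_equiv Subgroup.topEquiv).center_nontrivial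
    rw [Subgroup.nontrivial_iff_ne_bot] at this
    exact absurd hc this

/-- The minimal vector in the octad lattice. -/
noncomputable def vZero : leechLattice := vB 0

theorem sqNorm_vZero : sqNorm (coordVec vZero) = 32 := by
  rw [vZero, sqNorm_eq_dot (vB_mem 0), res_vB, dot_basis_norm]

theorem pr_vZero : pr vZero = wVec := by rw [pr, vZero, res_vB, proj_basis_zero]

theorem exists_move_vZero : ∃ g : Co0, g • vZero = Spor.leechU :=
  (sameOrbit_norm32 sqNorm_vZero (show (none : GolayPt) ≠ some 0 by simp)).trans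
    (sameOrbit_norm32 sqNorm_leechU (show (none : GolayPt) ≠ some 0 by simp)).symm

/-- An element carrying the chosen vector to the vector defining `Co2`. -/
noncomputable def g₀ : Co0 := exists_move_vZero.choose

theorem g₀_smul : g₀ • vZero = Spor.leechU := exists_move_vZero.choose_spec

theorem exists_tInv : ∃ a : Spor.Co2, coTwoToCoZero a = g₀ * zK * g₀⁻¹ :=
  exists_coTwo (by
    rw [mul_smul, mul_smul, show g₀⁻¹ • Spor.leechU = vZero by rw [← g₀_smul, inv_smul_smul],
      show zK • vZero = vZero from zK_mem.2 _ (vB_mem 0), g₀_smul])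

/-- The involution of `Co2`. -/
noncomputable def tInv : Spor.Co2 := exists_tInv.choose

theorem coe_tInv : coTwoToCoZero tInv = g₀ * zK * g₀⁻¹ := exists_tInv.choose_spec

theorem orderOf_tInv : orderOf tInv = 2 := by
  rw [← orderOf_injective coTwoToCoZero (Subgroup.inclusion_injective _) tInv, coe_tInv,
    ← MulAut.conj_apply, MulEquiv.orderOf_eq]
  exact orderOf_eq_prime (by rw [pow_two, zK_sq]) zK_ne_one

/-- The centraliser in `Co2`. -/
abbrev CT : Subgroup Spor.Co2 := Subgroup.centralizer ({tInv} : Set Spor.Co2)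

theorem mem_C₀_of_zK {k : Co0} (h : k * zK = zK * k) : k ∈ C₀ := by
  rw [C₀, Subgroup.mem_centralizer_singleton_iff]
  have e : eps = negAut * zK := by rw [zK, ← mul_assoc, negAut_sq, one_mul]
  have hc := Subgroup.mem_center_iff.1 negAut_mem_center k
  rw [e, ← mul_assoc, hc, mul_assoc, h, mul_assoc]

theorem conj_mem_C₀ (c : CT) : g₀⁻¹ * coTwoToCoZero (c : Spor.Co2) * g₀ ∈ C₀ := by
  refine mem_C₀_of_zK ?_
  have h := congrArg coTwoToCoZero (Subgroup.mem_centralizer_singleton_iff.1 c.2)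
  rw [map_mul, map_mul, coe_tInv] at h
  have h' := congrArg (fun a => g₀⁻¹ * a * g₀) h
  simp only [mul_assoc, inv_mul_cancel_left, inv_mul_cancel, mul_one] at h'
  simp only [mul_assoc]
  exact h'

/-- The centraliser conjugated into the octad centraliser. -/
noncomputable def toC₀ : CT →* C₀ :=
  MonoidHom.codRestrict ((MulAut.conj g₀⁻¹).toMonoidHom.comp (coTwoToCoZero.comp CT.subtype)) C₀ fun c => by
    show g₀⁻¹ * _ * (g₀⁻¹)⁻¹ ∈ C₀
    rw [inv_inv]; exact conj_mem_C₀ c

theorem coe_toC₀ (c : CT) : (toC₀ c : Co0) = g₀⁻¹ * coTwoToCoZero (c : Spor.Co2) * g₀ := by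
  show g₀⁻¹ * _ * (g₀⁻¹)⁻¹ = _
  rw [inv_inv]; rfl

theorem toC₀_fix (c : CT) : (toC₀ c : Co0) • vZero = vZero := by
  rw [coe_toC₀, mul_smul, mul_smul, g₀_smul, coTwoToCoZero_fix, ← g₀_smul, inv_smul_smul]

theorem toC₀_injective : Function.Injective toC₀ := fun a b h => by
  have := congrArg (fun x : C₀ => (x : Co0)) h
  simp only [coe_toC₀] at this
  exact Subtype.ext (Subgroup.inclusion_injective _ (mul_left_cancel (mul_right_cancel this)))

theorem exists_toC₀ {k : C₀} (hk : (k : Co0) • vZero = vZero) : ∃ c, toC₀ c = k := by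
  obtain ⟨a, ha⟩ := exists_coTwo (g := g₀ * (k : Co0) * g₀⁻¹) (by
    rw [mul_smul, mul_smul, show g₀⁻¹ • Spor.leechU = vZero by rw [← g₀_smul, inv_smul_smul], hk, g₀_smul])
  have hz : (k : Co0) * zK = zK * k := (zK_comm k.2).symm
  refine ⟨⟨a, Subgroup.mem_centralizer_singleton_iff.2 ?_⟩, Subtype.ext ?_⟩
  · refine Subgroup.inclusion_injective inf_le_left ?_
    show coTwoToCoZero (_ * _) = coTwoToCoZero (_ * _)
    rw [map_mul, map_mul, ha, coe_tInv]
    simp only [mul_assoc, inv_mul_cancel_left]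
    rw [← mul_assoc (k : Co0) zK, hz, mul_assoc]
  · rw [coe_toC₀, ha]; group

theorem psi_toC₀_mem (c : CT) : psi (toC₀ c) ∈ stComm := by
  refine ⟨range_psi.le ⟨_, rfl⟩, ?_⟩
  show CfsgLib.OrthGen.act qF _ wVec = wVec
  rw [← pr_vZero, vZero, act_psi _ (vB_mem 0)]
  exact congrArg pr (toC₀_fix c)

/-- The symplectic representation of the centraliser. -/
noncomputable def rho : CT →* Matrix.symplecticGroup (Fin 3) (ZMod 2) :=
  commToSymp.comp ((psi.comp toC₀).codRestrict stComm psi_toC₀_mem)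

theorem rho_surjective : Function.Surjective rho := by
  refine commToSymp_bijective.2.comp ?_
  rintro ⟨x, hx, hxw⟩
  obtain ⟨g, rfl⟩ := range_psi.ge hx
  have hw : pr ((g : Co0) • vZero) = pr vZero := by
    rw [pr_vZero, vZero, ← act_psi g (vB_mem 0), show pr (vB 0) = wVec from pr_vZero]
    exact hxw
  have hn : sqNorm (coordVec ((g : Co0) • vZero)) = 32 := (CfsgLib.Leech.sqNorm_smul _ _).trans sqNorm_vZero
  rcases eq_or_eq_neg (v := vZero) (vB_mem 0) (smul_mem_Supp g.2 (vB_mem 0)) sqNorm_vZero hn hw.symm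
    with h | h
  · obtain ⟨c, hc⟩ := exists_toC₀ h
    exact ⟨c, Subtype.ext (by show psi (toC₀ c) = psi g; rw [hc])⟩
  · obtain ⟨c, hc⟩ := exists_toC₀ (k := ⟨negAut, negAut_mem_C₀⟩ * g) (by
      rw [Subgroup.coe_mul, mul_smul]
      show negAut • (g : Co0) • vZero = vZero
      rw [show (g : Co0) • vZero = -vZero from h, negAut_apply, neg_neg])
    refine ⟨c, Subtype.ext ?_⟩
    show psi (toC₀ c) = psi g
    rw [hc, map_mul, (psi_eq_one_iff _).2 (Or.inr ?_), one_mul]
    show negAut * negAut ∈ K₀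
    rw [negAut_sq]; exact one_mem _

theorem mem_ker_rho {c : CT} : c ∈ rho.ker ↔ (toC₀ c : Co0) ∈ K₀ := by
  rw [MonoidHom.mem_ker, rho, MonoidHom.comp_apply,
    map_eq_one_iff commToSymp commToSymp_bijective.1, Subtype.ext_iff]
  show psi (toC₀ c) = 1 ↔ _
  rw [psi_eq_one_iff]
  refine ⟨fun h => h.resolve_right fun h' => ?_, Or.inl⟩
  have := h'.2 _ (vB_mem 0)
  rw [mul_smul, show vB 0 = vZero from rfl, toC₀_fix, negAut_apply] at this
  have h0 := congrArg res this
  rw [res_neg, show res vZero = basis8 0 from res_vB 0] at h0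
  exact absurd h0 (by decide)

/-- The kernel is a copy of `K₀`. -/
noncomputable def kerRhoEquiv : rho.ker ≃* K₀ :=
  MulEquiv.ofBijective ((((Subgroup.subtype C₀).comp toC₀).comp rho.ker.subtype).codRestrict K₀
      fun c => mem_ker_rho.1 c.2)
    ⟨fun a b h => Subtype.ext (toC₀_injective (Subtype.ext (congrArg (fun x : K₀ => (x : Co0)) h))), fun k => by
      obtain ⟨c, hc⟩ := exists_toC₀ (k := ⟨k.1, k.2.1⟩) (k.2.2 _ (vB_mem 0))
      exact ⟨⟨c, mem_ker_rho.2 (by rw [hc]; exact k.2)⟩, Subtype.ext (by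
        show (toC₀ c : Co0) = k
        rw [hc])⟩⟩

theorem pCore_CT : Cfsg.pCore 2 CT = rho.ker := by
  have : Fact (Nat.Prime 2) := ⟨Nat.prime_two⟩
  have := CfsgLib.Leech.finite_Co0
  have : Finite Spor.Co2 := Finite.of_injective coTwoToCoZero (Subgroup.inclusion_injective _)
  have hp : IsPGroup 2 rho.ker :=
    (IsPGroup.of_card (p := 2) (n := 9) (by rw [card_K₀]; norm_num) : IsPGroup 2 K₀).of_equiv kerRhoEquiv.symm
  refine le_antisymm ?_ (CfsgLib.StronglyPEmbedded.le_pCore' inferInstance hp)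
  have hn : ((Cfsg.pCore 2 CT).map rho).Normal :=
    (CfsgLib.StronglyPEmbedded.normal_pCore' (p := 2)).map rho rho_surjective
  have := symp_normal_two hn (CfsgLib.StronglyPEmbedded.isPGroup_pCore'.map rho)
  rwa [Subgroup.map_eq_bot_iff] at this

/-- The involution centraliser `2 ^ (1 + 8) Sp(6, 2)` of the second Conway group. -/
theorem coTwo_involution_centralizer :
    ∃ t : ↥Cfsg.Spor.Co2, orderOf t = 2 ∧
      Cfsg.IsExtraspecial 2 (Cfsg.pCore 2 ↥(Subgroup.centralizer ({t} : Set ↥Cfsg.Spor.Co2))) ∧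
      Nat.card (Cfsg.pCore 2 ↥(Subgroup.centralizer ({t} : Set ↥Cfsg.Spor.Co2))) = 2 ^ 9 ∧
      Nonempty (↥(Subgroup.centralizer ({t} : Set ↥Cfsg.Spor.Co2)) ⧸
        Cfsg.pCore 2 ↥(Subgroup.centralizer ({t} : Set ↥Cfsg.Spor.Co2)) ≃*
          Matrix.symplecticGroup (Fin 3) (ZMod 2)) :=
  ⟨tInv, orderOf_tInv,
    CfsgLib.PGroups.IsExtraspecial.of_mulEquiv ((MulEquiv.subgroupCongr pCore_CT).trans kerRhoEquiv).symm
      isExtraspecial_K₀,
    by rw [Nat.card_congr ((MulEquiv.subgroupCongr pCore_CT).trans kerRhoEquiv).toEquiv, card_K₀]; norm_num,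
    ⟨(QuotientGroup.quotientMulEquivOfEq pCore_CT).trans
      (QuotientGroup.quotientKerEquivOfSurjective rho rho_surjective)⟩⟩

end CfsgLib.Mathieu.CoTwoInvolution
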