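import Cfsg.Agent.Lib.SchurMult.OddSylow
import Mathlib.GroupTheory.PGroup

/-!
The multiplier at the prime three: a subgroup of index prime to three generated by commuting elements
of order three inverted by an involution, and two commuting elements of order three centralised by
that involution.
-/

set_option autoImplicit false

namespace CfsgLib.Mathieu.InvertingThree

open Subgroup CfsgLib.SchurMult
open scoped commutatorElement

universe v

variable {G : Type v} [Group G]

/-- In a finite group, mapping the generators into the subgroup is enough to normalise it. -/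
theorem mem_normalizer_of_conj [Finite G] {S : Set G} {g : G}
    (h : ∀ s ∈ S, g * s * g⁻¹ ∈ Subgroup.closure S) :
    g ∈ Subgroup.normalizer (Subgroup.closure S : Set G) := by
  have hle : (Subgroup.closure S).map (MulAut.conj g).toMonoidHom ≤ Subgroup.closure S := by
    rw [MonoidHom.map_closure, Subgroup.closure_le]
    rintro _ ⟨s, hs, rfl⟩
    exact h s hs
  have heq : (Subgroup.closure S).map (MulAut.conj g).toMonoidHom = Subgroup.closure S :=
    Subgroup.eq_of_le_of_card_ge hle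
      (by rw [Subgroup.card_map_of_injective (MulAut.conj g).injective])
  rw [Subgroup.mem_normalizer_iff]
  intro x
  constructor
  · intro hx; exact heq ▸ ⟨x, hx, rfl⟩
  · intro hx
    obtain ⟨y, hy, e⟩ := heq.ge hx
    rwa [← (MulAut.conj g).injective (e : MulAut.conj g y = MulAut.conj g x)]

/-- Commuting elements of order `p` generate a `p`-group. -/
theorem isPGroup_closure {p : ℕ} {S : Set G} (hc : ∀ a ∈ S, ∀ b ∈ S, a * b = b * a)
    (hp : ∀ a ∈ S, a ^ p = 1) : IsPGroup p (Subgroup.closure S) := by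
  have hcomm : ∀ a ∈ Subgroup.closure S, ∀ b ∈ Subgroup.closure S, Commute a b := by
    intro a ha b hb
    have h1 : ∀ s ∈ S, Commute a s := by
      intro s hs
      induction ha using Subgroup.closure_induction with
      | mem x hx => exact hc x hx s hs
      | one => exact Commute.one_left s
      | mul x y _ _ hx hy => exact hx.mul_left hy
      | inv x _ hx => exact hx.inv_left
    induction hb using Subgroup.closure_induction with
    | mem x hx => exact h1 x hx
    | one => exact Commute.one_right a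
    | mul x y _ _ hx hy => exact hx.mul_right hy
    | inv x _ hx => exact hx.inv_right
  rintro ⟨x, hx⟩
  refine ⟨1, Subtype.ext ?_⟩
  simp only [pow_one, SubgroupClass.coe_pow, OneMemClass.coe_one]
  induction hx using Subgroup.closure_induction with
  | mem x hx => exact hp x hx
  | one => exact one_pow p
  | mul x y hx' hy' hx hy => rw [(hcomm x hx' y hy').mul_pow, hx, hy, one_mul]
  | inv x _ hx => rw [inv_pow, hx, inv_one]

/-- The index of a `p`-subgroup that is as large as a Sylow subgroup. -/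
theorem not_dvd_index {p k m : ℕ} [Fact p.Prime] [Finite G] (hG : Nat.card G = p ^ k * m)
    (hm : ¬ p ∣ m) {H : Subgroup G} (hH : IsPGroup p H) (hle : p ^ k ≤ Nat.card H) :
    ¬ p ∣ H.index := by
  have hp : p.Prime := Fact.out
  obtain ⟨j, hj⟩ := IsPGroup.iff_card.1 hH
  have hd : p ^ j ∣ p ^ k * m := hj ▸ hG ▸ H.card_subgroup_dvd_card
  have hjk : j = k := by
    refine le_antisymm ?_ ((Nat.pow_le_pow_iff_right hp.one_lt).1 (hj ▸ hle))
    exact (Nat.pow_dvd_pow_iff_le_right hp.one_lt).1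
      (((hp.coprime_iff_not_dvd.2 hm).pow_left j).dvd_of_dvd_mul_right hd)
  have := H.card_mul_index
  rw [hj, hjk, hG] at this
  rwa [Nat.eq_of_mul_eq_mul_left (pow_pos hp.pos k) this]

/-- No stem extension has kernel of order divisible by three. -/
theorem not_three_dvd [Finite G] {n : ℕ} (b : Fin n → G) (t x y g₀ : G) {c₁ c₂ c₃ c₄ : ℕ}
    (hbb : ∀ i j, b i * b j = b j * b i) (hinv : ∀ i, t * b i * t⁻¹ = (b i)⁻¹)
    (ht : t * t = 1) (hx : x ^ 3 = 1) (htx : t * x = x * t) (hty : t * y = y * t) (hxy : x * y = y * x)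
    (hgx : g₀ * x * g₀⁻¹ = x ^ c₁ * y ^ c₂) (hgy : g₀ * y * g₀⁻¹ = x ^ c₃ * y ^ c₄)
    (hdet : (c₁ * c₄ + 2 * (c₂ * c₃)) % 3 ≠ 1)
    (hxb : ∀ i, x * b i * x⁻¹ ∈ Subgroup.closure (Set.range b))
    (hyb : ∀ i, y * b i * y⁻¹ ∈ Subgroup.closure (Set.range b))
    (hwit : ∀ i j, i ≠ j → ∃ w v : Fin n, ((w = i ∧ v = j) ∨ (w = j ∧ v = i)) ∧
      ∃ g u : G, u ∈ Subgroup.closure (Set.range b) ∧ g * b v * g⁻¹ = b v ∧ g * u * g⁻¹ = u * b w)
    (hindex : ¬ 3 ∣ (Subgroup.closure (Set.range b ∪ {x, y})).index)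
    {Γ : Type v} [Group Γ] [Finite Γ] (σ : Γ →* G) (hσ : Cfsg.IsStemExtension σ) :
    ¬ 3 ∣ Nat.card σ.ker := by
  intro hd
  obtain ⟨Δ, _, _, τ, hτ, hτ3⟩ := exists_stem_card_ker_eq hσ Nat.prime_three hd
  refine not_dvd_card_ker_of_local hτ Nat.prime_three _ hindex ?_ (hτ3.symm ▸ dvd_rfl)
  have hc := hτ.2.1
  have hk3 : ∀ k ∈ τ.ker, k ^ 3 = 1 := fun k hk => by
    have := pow_card_eq_one' (x := (⟨k, hk⟩ : τ.ker))
    rw [hτ3] at this
    exact congrArg Subtype.val this
  have hone : ∀ k ∈ τ.ker, k ^ 2 = 1 → k = 1 := fun k hk h2 => by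
    have := hk3 k hk
    rwa [pow_succ, h2, one_mul] at this
  obtain ⟨T, hT⟩ := hτ.1 t
  obtain ⟨X, hX⟩ := hτ.1 x
  obtain ⟨Y, hY⟩ := hτ.1 y
  -- the lifts inverted by `T`
  have hlift : ∀ i, ∃ B : Δ, τ B = b i ∧ T * B * T⁻¹ = B⁻¹ := fun i => by
    obtain ⟨B, hB⟩ := hτ.1 (b i)
    set k := B * (T * B * T⁻¹) with hk
    have hkk : k ∈ τ.ker := by rw [hk, MonoidHom.mem_ker]; simp [hB, hT, hinv i]
    have hkc : ∀ z, z * k = k * z := ker_comm hc hkk
    refine ⟨B * k, by rw [map_mul, hB, MonoidHom.mem_ker.1 hkk, mul_one], ?_⟩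
    calc T * (B * k) * T⁻¹ = T * B * (k * T⁻¹) := by group
      _ = T * B * T⁻¹ * k := by rw [← hkc T⁻¹]; group
      _ = B⁻¹ * k * k := by rw [hk]; group
      _ = B⁻¹ * k⁻¹ := by
        rw [mul_assoc, show k * k = k⁻¹ from eq_inv_of_mul_eq_one_left (by
          rw [← pow_two, ← pow_succ]; exact hk3 k hkk)]
      _ = k⁻¹ * B⁻¹ := (Commute.inv_right (show Commute B⁻¹ k from hkc _)).eq
      _ = (B * k)⁻¹ := by group
  choose B hB hBT using hlift
  have hcomm : ∀ i j, Commute (B i) (B j) := by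
    intro i j
    by_cases hij : i = j
    · rw [hij]
    obtain ⟨w, v, hwv, g, u, hu, hgv, hgu⟩ := hwit i j hij
    have hmain : ⁅B w, B v⁆ = 1 := by
      obtain ⟨P, hP⟩ := hτ.1 g
      obtain ⟨U, hU⟩ := hτ.1 u
      have hcu : Commute (τ U) (τ (B v)) := by
        rw [hU, hB]
        refine Subgroup.closure_induction (p := fun z _ => Commute z (b v)) ?_ (Commute.one_left _)
          (fun _ _ _ _ h1 h2 => h1.mul_left h2) (fun _ _ h1 => h1.inv_left) hu
        rintro _ ⟨i, rfl⟩
        exact hbb i v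
      have hwv' : Commute (τ (B w)) (τ (B v)) := by rw [hB, hB]; exact hbb w v
      have e1 : ⁅U, B v⁆ = ⁅U * B w, B v⁆ :=
        ((comm_conj hc hcu P).symm).trans (comm_eq_of_map_eq hc (by simp [hP, hU, hB, hgu])
          (by simp [hP, hB, hgv]))
      rw [comm_mul_left hc hwv'] at e1
      exact left_eq_mul.1 e1
    rw [commutatorElement_eq_one_iff_mul_comm] at hmain
    rcases hwv with ⟨rfl, rfl⟩ | ⟨rfl, rfl⟩
    · exact hmain
    · exact hmain.symm
  set A := Subgroup.closure (Set.range B) with hA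
  have hAc : ∀ a ∈ A, ∀ i, Commute a (B i) := fun a ha i => by
    induction ha using Subgroup.closure_induction with
    | mem z hz => obtain ⟨j, rfl⟩ := hz; exact hcomm j i
    | one => exact Commute.one_left _
    | mul z w _ _ hz hw => exact hz.mul_left hw
    | inv z _ hz => exact hz.inv_left
  have hAA : ∀ a ∈ A, ∀ a' ∈ A, Commute a a' := fun a ha a' ha' => by
    induction ha' using Subgroup.closure_induction with
    | mem z hz => obtain ⟨j, rfl⟩ := hz; exact hAc a ha j
    | one => exact Commute.one_right _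
    | mul z w _ _ hz hw => exact hz.mul_right hw
    | inv z _ hz => exact hz.inv_right
  have hAT : ∀ a ∈ A, T * a * T⁻¹ = a⁻¹ := fun a ha => by
    induction ha using Subgroup.closure_induction with
    | mem z hz => obtain ⟨j, rfl⟩ := hz; exact hBT j
    | one => simp
    | mul z w hz' hw' hz hw =>
      rw [show T * (z * w) * T⁻¹ = (T * z * T⁻¹) * (T * w * T⁻¹) by group, hz, hw, mul_inv_rev,
        ((hAA z hz' w hw').inv_inv).eq]
    | inv z _ hz => rw [show T * z⁻¹ * T⁻¹ = (T * z * T⁻¹)⁻¹ by group, hz]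
  have hmapA : A.map τ = Subgroup.closure (Set.range b) := by
    rw [MonoidHom.map_closure, ← Set.range_comp]
    exact congrArg (fun f => Subgroup.closure (Set.range f)) (funext hB)
  have hfix : ∀ (Z : Δ) (z : G), τ Z = z → t * z = z * t → z ^ 3 = 1 → Commute T Z := by
    intro Z z hZ htz hz
    have hcm : Commute (τ T) (τ Z) := by rw [hT, hZ]; exact htz
    have hmem : ⁅T, Z⁆ ∈ τ.ker := comm_mem_ker hcm
    have h2 : ⁅T, Z⁆ ^ 2 = 1 := by
      rw [← comm_pow_left hc hcm, commutatorElement_eq_one_iff_mul_comm]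
      exact (ker_comm hc (show T ^ 2 ∈ τ.ker by rw [MonoidHom.mem_ker, map_pow, hT, pow_two, ht]) Z).symm
    exact commutatorElement_eq_one_iff_mul_comm.1 (hone _ hmem h2)
  have hnorm : ∀ (Z : Δ) (z : G), τ Z = z → Commute T Z →
      (∀ i, z * b i * z⁻¹ ∈ Subgroup.closure (Set.range b)) →
      Z ∈ Subgroup.normalizer (A : Set Δ) := by
    intro Z z hZ hTZ hzb
    refine mem_normalizer_of_conj ?_
    rintro _ ⟨i, rfl⟩
    set u := Z * B i * Z⁻¹ with hu
    have hmem : τ u ∈ A.map τ := by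
      rw [hmapA, hu, map_mul, map_mul, map_inv, hZ, hB]; exact hzb i
    obtain ⟨a, ha, hae⟩ := hmem
    have hk : a⁻¹ * u ∈ τ.ker := by rw [MonoidHom.mem_ker, map_mul, map_inv, hae, inv_mul_cancel]
    have hTu : T * u * T⁻¹ = u⁻¹ := by
      rw [hu, show T * (Z * B i * Z⁻¹) * T⁻¹ = (T * Z) * B i * (T * Z)⁻¹ by group, hTZ.eq,
        show Z * T * B i * (Z * T)⁻¹ = Z * (T * B i * T⁻¹) * Z⁻¹ by group, hBT]
      group
    have e : T * (a⁻¹ * u) * T⁻¹ = a * u⁻¹ := by
      rw [show T * (a⁻¹ * u) * T⁻¹ = (T * a * T⁻¹)⁻¹ * (T * u * T⁻¹) by group, hAT a ha, hTu, inv_inv]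
    rw [ker_comm hc hk T, mul_inv_cancel_right] at e
    have hau : Commute a u := by
      have hk' := ker_comm hc hk a
      rw [mul_inv_cancel_left, mul_assoc] at hk'
      exact inv_mul_eq_iff_eq_mul.1 hk'.symm |>.symm
    have h1 : a⁻¹ * u = 1 := hone _ hk (by
      rw [pow_two]
      conv_lhs => arg 2; rw [e]
      rw [hau.inv_right.eq]; group)
    rw [inv_mul_eq_one] at h1
    exact h1 ▸ ha
  have hTX := hfix X x hX htx hx
  have hcXY : Commute (τ X) (τ Y) := by rw [hX, hY]; exact hxy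
  have hXY : ⁅X, Y⁆ = 1 := OddSylow.comm_eq_one_of_det hc hτ.1 Nat.prime_three hcXY (by rw [hX, hx])
    (g := g₀) (by rw [hX, hY]; exact hgx) (by rw [hX, hY]; exact hgy) hdet
  have hTY : Commute T Y := by
    have hcm : Commute (τ T) (τ Y) := by rw [hT, hY]; exact hty
    have h2 : ⁅T, Y⁆ ^ 2 = 1 := by
      rw [← comm_pow_left hc hcm, commutatorElement_eq_one_iff_mul_comm]
      exact (ker_comm hc (show T ^ 2 ∈ τ.ker by rw [MonoidHom.mem_ker, map_pow, hT, pow_two, ht]) Y).symm
    exact commutatorElement_eq_one_iff_mul_comm.1 (hone _ (comm_mem_ker hcm) h2)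
  have hNX := hnorm X x hX hTX hxb
  have hNY := hnorm Y y hY hTY hyb
  intro z hz hzk
  have himg : Set.range b ∪ {x, y} = τ '' (Set.range B ∪ {X, Y}) := by
    rw [Set.image_union, ← Set.range_comp, Set.image_pair, hX, hY]
    exact congrArg (fun f => Set.range f ∪ {x, y}) (funext hB).symm
  rw [himg] at hz
  have hzA : z ∈ A := by
    have hNA : ∀ a ∈ A, a ∈ Subgroup.normalizer (A : Set Δ) := fun a ha => Subgroup.le_normalizer ha
    have hcA : ∀ P ∈ Subgroup.normalizer (A : Set Δ), ∀ a ∈ A, ⁅P, a⁆ ∈ A := fun P hP a ha => by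
      rw [commutatorElement_def]
      exact mul_mem ((Subgroup.mem_normalizer_iff.1 hP a).1 ha) (inv_mem ha)
    refine commutator_comap_closure_le hc (Set.range B ∪ {X, Y}) A ?_ ?_ hz
    · rintro s (⟨i, rfl⟩ | rfl | rfl)
      exacts [hNA _ (Subgroup.subset_closure ⟨i, rfl⟩), hNX, hNY]
    · have hXY' : ⁅Y, X⁆ = 1 := by rw [← commutatorElement_inv, hXY, inv_one]
      have hB' : ∀ i, B i ∈ A := fun i => Subgroup.subset_closure ⟨i, rfl⟩
      have hflip : ∀ P ∈ Subgroup.normalizer (A : Set Δ), ∀ a ∈ A, ⁅a, P⁆ ∈ A := fun P hP a ha => by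
        rw [← commutatorElement_inv]; exact inv_mem (hcA P hP a ha)
      rintro s (⟨i, rfl⟩ | rfl | rfl) r (⟨j, rfl⟩ | rfl | rfl)
      exacts [hcA _ (hNA _ (hB' i)) _ (hB' j), hflip _ hNX _ (hB' i), hflip _ hNY _ (hB' i),
        hcA _ hNX _ (hB' j), by simp, by rw [hXY]; exact one_mem A,
        hcA _ hNY _ (hB' j), by rw [hXY']; exact one_mem A, by simp]
  refine hone z hzk ?_
  have := hAT z hzA
  rw [ker_comm hc hzk T, mul_inv_cancel_right] at this
  rw [pow_two]
  exact eq_inv_iff_mul_eq_one.1 this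

end CfsgLib.Mathieu.InvertingThree
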