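import Cfsg.Agent.Lib.Mathieu.CoTwoMultEval
import Cfsg.Agent.Lib.Mathieu.InvertingThree
import Cfsg.Agent.Lib.Mathieu.CoTwoOut
import Cfsg.Agent.Lib.SchurMult.SmallSylow

/-!
The second Conway group has trivial Schur multiplier.
-/

set_option autoImplicit false
set_option maxRecDepth 100000

namespace CfsgLib.Mathieu.CoTwoMult

open Cfsg CfsgLib.Leech CfsgLib.Fischer2 CfsgLib.SchurMult CfsgLib.Mathieu.InvertingThree
open CfsgLib.GolayStructure hiding tblAt imgMask

local instance fact_prime_three_cm2 : Fact (Nat.Prime 3) := ⟨Nat.prime_three⟩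
local instance fact_prime_five_cm2 : Fact (Nat.Prime 5) := ⟨by norm_num⟩
local instance finite_Co0_cm2 : Finite Co0 := finite_Co0

theorem card_eq_at : Nat.card coTwoGroup = 2 ^ 18 * 161382375 ∧
    Nat.card coTwoGroup = 3 ^ 6 * 58032128000 ∧ Nat.card coTwoGroup = 5 ^ 3 * 338443370496 := by
  rw [natCard_coTwoGroup]
  norm_num

theorem not_two_dvd (Γ : Type) [Group Γ] [Finite Γ] (σ : Γ →* coTwoGroup)
    (hσ : Cfsg.IsStemExtension σ) : ¬ 2 ∣ Nat.card σ.ker := by
  have hr := collector_rels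
  have hc := collector_conjs
  have hs := series_ok
  simp only [relsOK, List.all_eq_true] at hr
  simp only [conjsOK, List.all_eq_true] at hc
  simp only [seriesOK, List.all_eq_true, List.mem_range] at hs
  refine lazy_not_two_dvd_card_ker Data.col elC (fun k => elC (18 + k)) collector_solved
    (fun e he => ?_) (fun v hv => ?_) (fun e he => ?_)
    (two_pow_le_card_series elC 18 fun i hi => notMem_of_stepOK (hs i hi))
    ⟨161382375, by norm_num, card_eq_at.1⟩ Γ σ hσ
  · have := hc e he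
    cases e with
    | assoc pre v =>
      simp only [List.all_eq_true, decide_eq_true_eq] at this
      exact this
    | conj k m pairs =>
      simp only [List.all_eq_true, Bool.and_eq_true, decide_eq_true_eq] at this
      exact fun q hq => ⟨(this q hq).1.1, (this q hq).1.2⟩
  · rw [List.getD_eq_getElem _ _ hv]
    exact eq_of_eqG (hr _ (List.getElem_mem hv))
  · have := hc e he
    cases e with
    | assoc pre v => trivial
    | conj k m pairs =>
      simp only [List.all_eq_true, Bool.and_eq_true] at this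
      intro q hq
      have h := eq_of_eqG (this q hq).2
      rw [lprod, lprod_append, lprod_digits, lprod_digits, lprod, lprod, mul_one] at h
      rw [mul_inv_eq_iff_eq_mul]
      exact h

theorem vOdd_facts : memTest Data.vOdd = true ∧ CfsgLib.Leech.dotL Data.vOdd Data.vOdd = 32 ∧
    Data.vOdd.length = 24 := by
  have := vOdd_ok
  simp only [Bool.and_eq_true, decide_eq_true_eq] at this
  exact ⟨this.1.1, this.1.2, this.2⟩

/-- The four commuting generators at the prime three. -/
noncomputable def bThree (i : Fin 4) : coTwoGroup := elC (27 + i)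

theorem lprod_bThree_mem {W : List ℕ} (h : ∀ n ∈ W, 27 ≤ n ∧ n < 31) :
    lprod elC W ∈ Subgroup.closure (Set.range bThree) := by
  induction W with
  | nil => exact one_mem _
  | cons n W ih =>
    rw [lprod]
    obtain ⟨h1, h2⟩ := h n List.mem_cons_self
    refine mul_mem (Subgroup.subset_closure ⟨⟨n - 27, by omega⟩, ?_⟩)
      (ih fun m hm => h m (List.mem_cons_of_mem _ hm))
    show elC (27 + (n - 27)) = elC n
    rw [Nat.add_sub_cancel' h1]

theorem lprod_two (a b : ℕ) : lprod elC [a, b] = elC a * elC b := by simp [lprod]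

theorem conj_of_eqG {a b : ℕ} {W : List ℕ} (h : eqG [a, b] (W ++ [a]) = true) :
    elC a * elC b * (elC a)⁻¹ = lprod elC W := by
  have := eq_of_eqG h
  rw [lprod_two, lprod_append, lprod, lprod, mul_one] at this
  exact mul_inv_eq_iff_eq_mul.2 this

theorem comm_of_eqG {a b : ℕ} (h : eqG [a, b] [b, a] = true) : elC a * elC b = elC b * elC a := by
  have := eq_of_eqG h
  rwa [lprod_two, lprod_two] at this

theorem not_three_dvd_ker (Γ : Type) [Group Γ] [Finite Γ] (σ : Γ →* coTwoGroup)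
    (hσ : Cfsg.IsStemExtension σ) : ¬ 3 ∣ Nat.card σ.ker := by
  obtain ⟨h, hw⟩ := three_ok
  simp only [threeOK, Bool.and_eq_true, List.all_eq_true, List.mem_range, decide_eq_true_eq] at h
  obtain ⟨⟨⟨⟨⟨⟨⟨⟨hgen, htt⟩, hx3⟩, hy3⟩, htx⟩, hty⟩, hxy⟩, hgx⟩, hgy⟩ := h
  simp only [witsOK, Bool.and_eq_true, List.all_eq_true, List.any_eq_true, List.mem_range,
    Bool.or_eq_true, decide_eq_true_eq, beq_iff_eq] at hw
  obtain ⟨hwit, hcov⟩ := hw
  have hb : ∀ i, bThree i ^ 3 = 1 := fun i => by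
    have := eq_of_eqG (hgen i i.2).1.1.1.1.1.1
    simpa [lprod, pow_succ, bThree, mul_assoc] using this
  have hbb : ∀ i j, bThree i * bThree j = bThree j * bThree i := fun i j =>
    comm_of_eqG ((hgen i i.2).1.1.1.1.2 j j.2)
  have hinv : ∀ i, elC 31 * bThree i * (elC 31)⁻¹ = (bThree i)⁻¹ := fun i => by
    rw [show bThree i = elC (27 + i) from rfl,
      conj_of_eqG (W := [27 + i, 27 + i]) (hgen i i.2).1.1.1.1.1.2, lprod_two]
    refine eq_inv_of_mul_eq_one_left ?_
    have := hb i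
    rwa [pow_succ, pow_two] at this
  have hxb : ∀ i, elC 25 * bThree i * (elC 25)⁻¹ ∈ Subgroup.closure (Set.range bThree) := fun i => by
    rw [show bThree i = elC (27 + i) from rfl, conj_of_eqG (hgen i i.2).1.1.1.2]
    exact lprod_bThree_mem (hgen i i.2).1.2
  have hyb : ∀ i, elC 26 * bThree i * (elC 26)⁻¹ ∈ Subgroup.closure (Set.range bThree) := fun i => by
    rw [show bThree i = elC (27 + i) from rfl, conj_of_eqG (hgen i i.2).1.1.2]
    exact lprod_bThree_mem (hgen i i.2).2
  have hx : elC 25 ^ 3 = 1 := by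
    simpa [lprod, pow_succ, mul_assoc] using eq_of_eqG hx3
  have hy : elC 26 ^ 3 = 1 := by
    simpa [lprod, pow_succ, mul_assoc] using eq_of_eqG hy3
  refine not_three_dvd bThree (elC 31) (elC 25) (elC 26) (elC 32) (c₁ := 1) (c₂ := 1) (c₃ := 1)
    (c₄ := 0) hbb hinv ?_ hx (comm_of_eqG htx) (comm_of_eqG hty) (comm_of_eqG hxy) ?_ ?_ (by decide)
    hxb hyb (fun i j hij => ?_) ?_ σ hσ
  · simpa [lprod] using eq_of_eqG htt
  · rw [conj_of_eqG (W := [25, 26]) hgx, lprod_two, pow_one, pow_one]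
  · rw [conj_of_eqG (W := [25]) hgy, pow_one, pow_zero, mul_one]
    simp [lprod]
  · obtain ⟨⟨w, v, g, u⟩, hm, hwv⟩ :=
      (hcov i i.2 j j.2).resolve_left (fun e => hij (Fin.ext e))
    obtain ⟨⟨h1, h2⟩, h3⟩ := hwit _ hm
    simp only at hwv h1 h2 h3
    have hw5 : w < 4 ∧ v < 4 := by omega
    refine ⟨⟨w, hw5.1⟩, ⟨v, hw5.2⟩, by simpa [Fin.ext_iff] using hwv, elC g, lprod elC u,
      lprod_bThree_mem h3, ?_, ?_⟩
    · exact mul_inv_eq_iff_eq_mul.2 (comm_of_eqG h1)
    · have := eq_of_eqG h2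
      rw [lprod, lprod_append, lprod_two] at this
      rw [mul_inv_eq_iff_eq_mul, this, bThree]
      group
  · set A := Subgroup.closure (Set.range bThree)
    set B := Subgroup.closure ({elC 25, elC 26} : Set coTwoGroup)
    have hA : IsPGroup 3 A := isPGroup_closure (by rintro _ ⟨i, rfl⟩ _ ⟨j, rfl⟩; exact hbb i j)
      (by rintro _ ⟨i, rfl⟩; exact hb i)
    have hB : IsPGroup 3 B := isPGroup_closure (by
      rintro a (rfl | rfl) b (rfl | rfl)
      exacts [rfl, comm_of_eqG hxy, (comm_of_eqG hxy).symm, rfl])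
      (by rintro a (rfl | rfl); exacts [hx, hy])
    have hBA : B ≤ Subgroup.normalizer (A : Set coTwoGroup) := by
      rw [Subgroup.closure_le]
      rintro a (rfl | rfl)
      · exact mem_normalizer_of_conj (by rintro _ ⟨i, rfl⟩; exact hxb i)
      · exact mem_normalizer_of_conj (by rintro _ ⟨i, rfl⟩; exact hyb i)
    have hH : IsPGroup 3 (Subgroup.closure (Set.range bThree ∪ {elC 25, elC 26})) := by
      rw [Subgroup.closure_union, sup_comm]
      exact hB.to_sup_of_normal_right' hA hBA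
    refine not_dvd_index card_eq_at.2.1 (by norm_num) hH ?_
    obtain ⟨hm, hn, hl⟩ := vOdd_facts
    refine le_card_of_reach hm hn hl counts.1 fun n hn' => Subgroup.subset_closure ?_
    simp only [List.mem_cons, List.not_mem_nil, or_false] at hn'
    rcases hn' with rfl | rfl | rfl | rfl | rfl | rfl
    · exact Or.inr (Or.inl rfl)
    · exact Or.inr (Or.inr rfl)
    · exact Or.inl ⟨0, rfl⟩
    · exact Or.inl ⟨1, rfl⟩
    · exact Or.inl ⟨2, rfl⟩
    · exact Or.inl ⟨3, rfl⟩

theorem reach_center : reachCount 4 [41] Data.vOdd = 5 := counts.2.2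

theorem not_five_dvd_ker (Γ : Type) [Group Γ] [Finite Γ] (σ : Γ →* coTwoGroup)
    (hσ : Cfsg.IsStemExtension σ) : ¬ 5 ∣ Nat.card σ.ker := by
  have h := five_ok
  simp only [fiveOK, Bool.and_eq_true] at h
  obtain ⟨⟨⟨⟨⟨⟨⟨⟨⟨hxy, hx5⟩, hy5⟩, hz5⟩, hxz⟩, hyz⟩, hgx⟩, hgz⟩, hhy⟩, hhz⟩ := h
  have hx : elC 39 ^ 5 = 1 := by simpa [lprod, pow_succ, mul_assoc] using eq_of_eqG hx5
  have hy : elC 40 ^ 5 = 1 := by simpa [lprod, pow_succ, mul_assoc] using eq_of_eqG hy5
  have hz : elC 41 ^ 5 = 1 := by simpa [lprod, pow_succ, mul_assoc] using eq_of_eqG hz5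
  have hxy' : elC 39 * elC 40 * (elC 39)⁻¹ = elC 41 * elC 40 := by
    rw [conj_of_eqG (W := [41, 40]) hxy, lprod_two]
  set A := Subgroup.closure ({elC 40, elC 41} : Set coTwoGroup)
  set H := Subgroup.closure ({elC 39, elC 40} : Set coTwoGroup)
  have hzH : elC 41 ∈ H := by
    have : elC 41 = elC 39 * elC 40 * (elC 39)⁻¹ * (elC 40)⁻¹ := by rw [hxy', mul_inv_cancel_right]
    rw [this]
    have h1 : elC 39 ∈ H := Subgroup.subset_closure (Or.inl rfl)
    have h2 : elC 40 ∈ H := Subgroup.subset_closure (Or.inr rfl)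
    exact mul_mem (mul_mem (mul_mem h1 h2) (inv_mem h1)) (inv_mem h2)
  have hA : IsPGroup 5 A := isPGroup_closure (by
      rintro a (rfl | rfl) b (rfl | rfl)
      exacts [rfl, comm_of_eqG hyz, (comm_of_eqG hyz).symm, rfl])
      (by rintro a (rfl | rfl); exacts [hy, hz])
  have hB : IsPGroup 5 (Subgroup.closure ({elC 39} : Set coTwoGroup)) :=
    isPGroup_closure (by rintro a rfl b rfl; rfl) (by rintro a rfl; exact hx)
  have hBA : Subgroup.closure ({elC 39} : Set coTwoGroup) ≤
      Subgroup.normalizer (A : Set coTwoGroup) := by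
    rw [Subgroup.closure_le]
    rintro a rfl
    refine mem_normalizer_of_conj ?_
    rintro b (rfl | rfl)
    · rw [hxy']
      exact mul_mem (Subgroup.subset_closure (Or.inr rfl)) (Subgroup.subset_closure (Or.inl rfl))
    · rw [mul_inv_eq_iff_eq_mul.2 (comm_of_eqG hxz)]
      exact Subgroup.subset_closure (Or.inr rfl)
  have hH : IsPGroup 5 H := (hB.to_sup_of_normal_right' hA hBA).to_le (by
    rw [Subgroup.closure_le]
    rintro a (rfl | rfl)
    · exact Subgroup.mem_sup_left (Subgroup.subset_closure rfl)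
    · exact Subgroup.mem_sup_right (Subgroup.subset_closure (Or.inl rfl)))
  have hge : 125 ≤ Nat.card H := by
    obtain ⟨hm, hn, hl⟩ := vOdd_facts
    refine le_card_of_reach hm hn hl counts.2.1 fun n hn' => ?_
    simp only [List.mem_cons, List.not_mem_nil, or_false] at hn'
    rcases hn' with rfl | rfl | rfl
    exacts [Subgroup.subset_closure (Or.inl rfl), Subgroup.subset_closure (Or.inr rfl), hzH]
  have hz1 : elC 41 ≠ 1 := by
    intro e
    obtain ⟨hm, hn, hl⟩ := vOdd_facts
    have := le_card_of_reach (H := (⊥ : Subgroup coTwoGroup)) hm hn hl reach_center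
      (fun n hn' => by rw [List.mem_singleton.1 hn', e]; exact one_mem _)
    rw [Subgroup.card_bot] at this
    omega
  refine OddSylow.not_dvd_of_extraspecial hσ (p := 5) (by norm_num) (x := elC 39) (y := elC 40)
    (z := elC 41) (g := elC 42) (h := elC 43) (a := 1) (b := 1) (c := 0) (d := 4) (a' := 4) (b' := 3)
    (c' := 0) (d' := 1) (by rw [hxy', mul_inv_cancel_right]) hx hy hz1 (comm_of_eqG hxz)
    (comm_of_eqG hyz) ?_ ?_ (by decide) ?_ ?_ (by decide)
    (not_dvd_index card_eq_at.2.2 (by norm_num) hH hge)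
  · rw [conj_of_eqG (W := [39, 41]) hgx]
    simp [lprod, pow_succ, mul_assoc]
  · rw [conj_of_eqG (W := [41, 41, 41, 41]) hgz]
    simp [lprod, pow_succ, mul_assoc]
  · rw [conj_of_eqG (W := [40, 40, 40, 40, 41, 41, 41]) hhy]
    simp [lprod, pow_succ, mul_assoc]
  · rw [conj_of_eqG (W := [41]) hhz]
    simp [lprod, pow_succ, mul_assoc]

theorem hasCyclicSchurMultiplier_coTwo : Cfsg.HasCyclicSchurMultiplier coTwoGroup 1 := by
  refine hasCyclicSchurMultiplier_one_of_primes fun p hp hpd Γ _ _ σ hσ => ?_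
  by_cases h2 : p = 2
  · subst h2; exact not_two_dvd Γ σ hσ
  by_cases h3 : p = 3
  · subst h3; exact not_three_dvd_ker Γ σ hσ
  by_cases h5 : p = 5
  · subst h5; exact not_five_dvd_ker Γ σ hσ
  refine not_dvd_card_ker_of_sq_not_dvd hσ hp ?_
  rw [natCard_coTwoGroup] at hpd ⊢
  have hp' : p = 7 ∨ p = 11 ∨ p = 23 := by
    rw [show 42305421312000 = 2 ^ 18 * 3 ^ 6 * 5 ^ 3 * 7 * 11 * 23 by norm_num] at hpd
    simp only [hp.dvd_mul] at hpd
    rcases hpd with ((((h | h) | h) | h) | h) | h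
    · exact absurd ((Nat.prime_dvd_prime_iff_eq hp Nat.prime_two).1 (hp.dvd_of_dvd_pow h)) h2
    · exact absurd ((Nat.prime_dvd_prime_iff_eq hp Nat.prime_three).1 (hp.dvd_of_dvd_pow h)) h3
    · exact absurd ((Nat.prime_dvd_prime_iff_eq hp (by norm_num)).1 (hp.dvd_of_dvd_pow h)) h5
    all_goals have := (Nat.prime_dvd_prime_iff_eq hp (by norm_num)).1 h; omega
  rcases hp' with rfl | rfl | rfl <;> decide +kernel

theorem hasCyclicSchurMultiplier_Co2 : Cfsg.HasCyclicSchurMultiplier ↥Cfsg.Spor.Co2 1 := by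
  obtain ⟨g, hg⟩ := sameOrbit_norm32 sqNorm_baseP ptP_ne_ptQ
  obtain ⟨g', hg'⟩ := sameOrbit_norm32 (v := Spor.leechU) sqNorm_leechU ptP_ne_ptQ
  have e1 : coTwoGroup ≃* MulAction.stabilizer Co0 Spor.leechU :=
    MulAction.stabilizerEquivStabilizer (g := g'⁻¹ * g) (show Spor.leechU = (g'⁻¹ * g) • baseP by
      rw [mul_smul, show g • baseP = g' • Spor.leechU from hg.trans hg'.symm, inv_smul_smul])
  have e2 : Spor.Co2 = (MulAction.stabilizer Co0 Spor.leechU).map Co0.subtype := by
    ext x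
    exact ⟨fun h => ⟨⟨x, h.1⟩, h.2, rfl⟩, by rintro ⟨g, hg, rfl⟩; exact ⟨g.2, hg⟩⟩
  exact hasSchurMultiplier_congr (e1.trans (((MulAction.stabilizer Co0 Spor.leechU).equivMapOfInjective _
    Co0.subtype_injective).trans (MulEquiv.subgroupCongr e2.symm))) hasCyclicSchurMultiplier_coTwo

end CfsgLib.Mathieu.CoTwoMult
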