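import Cfsg.Agent.Lib.Mathieu.CoTwoMultGood
import Cfsg.Agent.Lib.Mathieu.McLOutEval
import Cfsg.Agent.Lib.GolayStructure.CoTwoSimple

/-!
Words in checked matrices fixing the vector of squared length 32, evaluated on packed keys, and the
finite checks for the multiplier of the second Conway group.
-/

set_option autoImplicit false
set_option maxRecDepth 100000

namespace CfsgLib.Mathieu.CoTwoMult

open Cfsg CfsgLib.Leech CfsgLib.Fischer2 CfsgLib.SchurMult
open CfsgLib.Mathieu.McLOut (forceB forceB_eq key_inj exists_testVec eq_one_of_test testVecs_ok)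
open CfsgLib.GolayStructure hiding tblAt imgMask

theorem matOf_ok (n : ℕ) : matOk (matOf n) = true := by
  have := matOf_good n
  simp only [matGood, Bool.and_eq_true] at this
  exact this.1.1

theorem datOf_ok (n : ℕ) : dataOk (matOf n) (datOf n) = true := by
  have := matOf_good n
  simp only [matGood, Bool.and_eq_true] at this
  exact this.2

theorem matOf_fix (n : ℕ) : fixOk (matOf n) listP = true := by
  have := matOf_good n
  simp only [matGood, Bool.and_eq_true] at this
  exact this.1.2

/-- The elements of the certificate. -/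
noncomputable def elC (n : ℕ) : coTwoGroup :=
  ⟨matAut (matOf n) (matOf_ok n), matAut_fixes (matOf_ok n) (matOf_fix n) toVec_listP⟩

theorem key_elC (n : ℕ) {x : leechLattice} (hx : sqNorm (coordVec x) = 32) :
    stepKey (datOf n) (key x) = key ((elC n : Co0) • x) :=
  key_matAut (matOf_ok n) (datOf_ok n) hx

/-- The evaluation of a word on a key, with a continuation. -/
noncomputable def evalW : List ℕ → ℕ → (ℕ → Bool) → Bool
  | [], k, c => c k
  | n :: W, k, c => evalW W k fun r => forceB (stepKey (datOf n) r) c

theorem evalW_spec : ∀ (W : List ℕ) {x : leechLattice}, sqNorm (coordVec x) = 32 →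
    ∀ c : ℕ → Bool, evalW W (key x) c = c (key (((lprod elC W : coTwoGroup) : Co0) • x))
  | [], x, _, c => by
    rw [lprod, OneMemClass.coe_one, one_smul]
    rfl
  | n :: W, x, hx, c => by
    show evalW W (key x) (fun r => forceB (stepKey (datOf n) r) c) = _
    rw [evalW_spec W hx, forceB_eq, lprod, Subgroup.coe_mul, mul_smul,
      key_elC n (by rw [sqNorm_smul', hx])]

/-- Two words agree on the testing vectors. -/
noncomputable def eqG (U V : List ℕ) : Bool :=
  McLOut.Data.testKeys.all fun k => evalW U k fun r => evalW V k fun s => Nat.beq r s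

theorem eq_of_eqG {U V : List ℕ} (h : eqG U V = true) : lprod elC U = lprod elC V := by
  refine Subtype.ext ((inv_mul_eq_one.1 ((eq_one_of_test fun i hi x hx => ?_) :
    ((lprod elC V : coTwoGroup) : Co0)⁻¹ * ((lprod elC U : coTwoGroup) : Co0) = 1)).symm)
  obtain ⟨y, hy, hyx, hk⟩ := exists_testVec hi
  obtain rfl : y = x := Subtype.ext (hyx.trans hx.symm)
  have h1 := List.all_eq_true.1 h (key y) (by
    rw [hk, List.getD_eq_getElem _ _ (by rw [← testVecs_ok.2.1, List.length_map, testVecs_ok.2.2.1]; exact hi)]
    exact List.getElem_mem _)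
  rw [evalW_spec U hy, evalW_spec V hy] at h1
  rw [mul_smul, key_inj (by rw [sqNorm_smul', hy]) (by rw [sqNorm_smul', hy]) (Nat.eq_of_beq_eq_true h1),
    inv_smul_smul]

/-! ### Orbits -/

/-- Images under one element. -/
noncomputable def mapStep (D : List ℕ × ℕ) : List ℕ → List ℕ :=
  List.rec [] fun a _ r => forceList (stepKey D a) fun c => c :: r

/-- The images under the powers up to a given exponent. -/
noncomputable def powsL (D : List ℕ × ℕ) : ℕ → List ℕ → List ℕ
  | 0, L => L
  | r + 1, L => L ++ powsL D r (mapStep D L)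

/-- The keys met by products of powers in a fixed order. -/
noncomputable def reach (r : ℕ) : List ℕ → ℕ → List ℕ
  | [], k => [k]
  | n :: ns, k => powsL (datOf n) r (reach r ns k)

/-- A lower bound for an orbit. -/
noncomputable def reachCount (r : ℕ) (ns : List ℕ) (v : List ℤ) : ℕ :=
  countD 60 ((reach r ns (keyL v)).map hashKey)

theorem reach_spec {H : Subgroup coTwoGroup} {v : leechLattice} (hv : sqNorm (coordVec v) = 32)
    (r : ℕ) : ∀ ns : List ℕ, (∀ n ∈ ns, elC n ∈ H) → ∀ k ∈ reach r ns (key v),
      KeyIn {y | ∃ h ∈ H, (h : Co0) • v = y} k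
  | [], _, k, hk => ⟨v, ⟨1, H.one_mem, by rw [OneMemClass.coe_one, one_smul]⟩,
      (List.mem_singleton.1 hk).symm⟩
  | n :: ns, hns, k, hk => by
    set S := {y | ∃ h ∈ H, (h : Co0) • v = y}
    have hstep : ∀ j, KeyIn S j → KeyIn S (stepKey (datOf n) j) := by
      rintro _ ⟨_, ⟨h, hh, rfl⟩, rfl⟩
      refine ⟨_, ⟨elC n * h, H.mul_mem (hns n List.mem_cons_self) hh, rfl⟩, ?_⟩
      rw [Subgroup.coe_mul, mul_smul]
      exact (key_elC n (by rw [sqNorm_smul', hv])).symm
    have hforce : ∀ (x : ℕ) (f : ℕ → List ℕ), forceList x f = f x := fun x f => by cases x <;> rfl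
    have hmap : ∀ L : List ℕ, (∀ j ∈ L, KeyIn S j) → ∀ j ∈ mapStep (datOf n) L, KeyIn S j := by
      intro L
      induction L with
      | nil => intro _ j hj; simp [mapStep] at hj
      | cons a L ih =>
        intro hL j hj
        change j ∈ forceList (stepKey (datOf n) a) (fun c => c :: mapStep (datOf n) L) at hj
        rw [hforce] at hj
        rcases List.mem_cons.1 hj with rfl | hj
        · exact hstep a (hL a List.mem_cons_self)
        · exact ih (fun i hi => hL i (List.mem_cons_of_mem _ hi)) j hj
    have hpows : ∀ (m : ℕ) (L : List ℕ), (∀ j ∈ L, KeyIn S j) →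
        ∀ j ∈ powsL (datOf n) m L, KeyIn S j := by
      intro m
      induction m with
      | zero => intro L hL j hj; exact hL j hj
      | succ m ih =>
        intro L hL j hj
        rw [powsL] at hj
        rcases List.mem_append.1 hj with hj | hj
        · exact hL j hj
        · exact ih _ (hmap L hL) j hj
    exact hpows r _ (reach_spec hv r ns fun i hi => hns i (List.mem_cons_of_mem _ hi)) k hk

theorem le_card_of_reach {H : Subgroup coTwoGroup} {L : List ℤ} (hm : memTest L = true)
    (hn : dotL L L = 32) (hl : L.length = 24) {r : ℕ} {ns : List ℕ} {m : ℕ}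
    (h : reachCount r ns L = m) (hns : ∀ n ∈ ns, elC n ∈ H) : m ≤ Nat.card H := by
  classical
  have : Finite Co0 := finite_Co0
  set v : leechLattice := ofList L hm
  have hv : sqNorm (coordVec v) = 32 := by
    rw [coordVec_ofList, ← dotInt_self, dotInt_toVec hl hl, hn]
  have hk : key v = keyL L := by
    rw [key, coordVec_ofList]
    congr 1
    refine List.ext_getElem (by rw [length_ofVec, hl]) fun j a b => ?_
    simp only [ofVec, List.getElem_map, List.getElem_range, toVec]
    rw [CfsgLib.Golay.idx_pt (by rwa [length_ofVec] at a), List.getD_eq_getElem]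
  set f : H → leechLattice := fun h => ((h : coTwoGroup) : Co0) • v
  have := Fintype.ofFinite H
  calc m ≤ ((reach r ns (keyL L)).map hashKey).toFinset.card := h ▸ countD_le _ _
    _ ≤ (Finset.univ.image fun h : H => hashKey (key (f h))).card := Finset.card_le_card fun a ha => by
        simp only [List.mem_toFinset, List.mem_map] at ha
        obtain ⟨k, hk', rfl⟩ := ha
        rw [← hk] at hk'
        obtain ⟨_, ⟨g, hg, rfl⟩, rfl⟩ := reach_spec hv r ns hns k hk'
        exact Finset.mem_image.2 ⟨⟨g, hg⟩, Finset.mem_univ _, rfl⟩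
    _ ≤ Finset.univ.card := Finset.card_image_le
    _ = Nat.card H := by rw [Finset.card_univ, Nat.card_eq_fintype_card]

/-! ### The series -/

/-- An orbit of a vector under the later generators misses the image under the current one. -/
noncomputable def stepOK (n i : ℕ) (v : List ℤ) (O : List (List ℤ)) : Bool :=
  O.all (fun L => memTest L && decide (dotL L L = 32) && decide (L.length = 24)) && O.contains v &&
    (List.range n).all (fun j => decide (j ≤ i) || O.all fun L =>
      evalW [j] (keyL L) fun r => O.any fun L' => Nat.beq r (keyL L')) &&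
    evalW [i] (keyL v) fun r => O.all fun L' => !Nat.beq r (keyL L')

theorem exists_of_good {L : List ℤ} (hm : memTest L = true) (hn : dotL L L = 32) (hl : L.length = 24) :
    ∃ x : leechLattice, sqNorm (coordVec x) = 32 ∧ key x = keyL L := by
  refine ⟨ofList L hm, by rw [coordVec_ofList, ← dotInt_self, dotInt_toVec hl hl, hn], ?_⟩
  rw [key, coordVec_ofList]
  congr 1
  refine List.ext_getElem (by rw [length_ofVec, hl]) fun j a b => ?_
  simp only [ofVec, List.getElem_map, List.getElem_range, toVec]
  rw [CfsgLib.Golay.idx_pt (by rwa [length_ofVec] at a), List.getD_eq_getElem]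

theorem notMem_of_stepOK {n i : ℕ} {v : List ℤ} {O : List (List ℤ)} (h : stepOK n i v O = true) :
    elC i ∉ Subgroup.closure (elC '' Set.Ioo i n) := by
  simp only [stepOK, Bool.and_eq_true, List.all_eq_true, decide_eq_true_eq, List.mem_range,
    Bool.or_eq_true, List.contains_iff_mem] at h
  obtain ⟨⟨⟨hO, hv⟩, hcl⟩, hmiss⟩ := h
  have : Finite Co0 := finite_Co0
  set S : Set leechLattice := {y | sqNorm (coordVec y) = 32 ∧ ∃ L ∈ O, key y = keyL L}
  have hex : ∀ L ∈ O, ∃ x : leechLattice, sqNorm (coordVec x) = 32 ∧ key x = keyL L := fun L hL =>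
    exists_of_good (hO L hL).1.1 (hO L hL).1.2 (hO L hL).2
  obtain ⟨x, hx, hk⟩ := hex v hv
  intro hmem
  have hstay : ∀ g ∈ Subgroup.closure (elC '' Set.Ioo i n), ∀ y ∈ S, (g : Co0) • y ∈ S := by
    intro g hg
    rw [← Subgroup.mem_toSubmonoid, Subgroup.closure_toSubmonoid_of_finite] at hg
    induction hg using Submonoid.closure_induction with
    | mem z hz =>
      obtain ⟨j, ⟨hij, hjn⟩, rfl⟩ := hz
      rintro y ⟨hy, L, hL, hyk⟩
      have h1 := (hcl j hjn).resolve_left (by omega) L hL
      rw [← hyk, evalW_spec _ hy] at h1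
      simp only [List.any_eq_true, lprod, mul_one] at h1
      obtain ⟨L', hL', he⟩ := h1
      exact ⟨by rw [sqNorm_smul', hy], L', hL', Nat.eq_of_beq_eq_true he⟩
    | one => intro y hy; simpa using hy
    | mul a b _ _ ha hb =>
      intro y hy
      rw [Subgroup.coe_mul, mul_smul]
      exact ha _ (hb y hy)
  obtain ⟨-, L', hL', he⟩ := hstay _ hmem x ⟨hx, v, hv, hk⟩
  rw [← hk, evalW_spec _ hx] at hmiss
  simp only [List.all_eq_true, lprod, mul_one] at hmiss
  have := hmiss L' hL'
  rw [he] at this
  simp at this

/-! ### The checks -/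

/-- The relations of the collector hold. -/
noncomputable def relsOK : Bool := Data.col.rels.all fun r => eqG r.1 r.2

/-- The conjugations of the collector hold. -/
noncomputable def conjsOK : Bool :=
  Data.col.eqs.all fun e =>
    match e with
    | .assoc pre _ => pre.all fun i => decide (i < 18)
    | .conj k m _ => m.all fun q => decide (q.1 < 2 ^ 18) && decide (q.2 < 2 ^ 18) &&
        eqG ((18 + k) :: Collector.digits 18 q.1) (Collector.digits 18 q.2 ++ [18 + k])

theorem collector_rels : relsOK = true := by decide +kernel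

theorem collector_conjs : conjsOK = true := by decide +kernel

theorem collector_solved : Data.col.solvedOK = true := by decide +kernel

/-- Every step of the series is proper. -/
noncomputable def seriesOK : Bool :=
  (List.range 18).all fun i => stepOK 18 i (Data.stepWits.getD i ([], [])).1 (Data.stepWits.getD i ([], [])).2

theorem series_ok : seriesOK = true := by decide +kernel

/-- The words of the facts at the prime three: four commuting generators inverted by an involution,
two commuting elements normalising their group, and the fusion. -/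
noncomputable def threeOK : Bool :=
  (List.range 4).all (fun i =>
    eqG [27 + i, 27 + i, 27 + i] [] && eqG [31, 27 + i] [27 + i, 27 + i, 31] &&
      (List.range 4).all (fun j => eqG [27 + i, 27 + j] [27 + j, 27 + i]) &&
        eqG [25, 27 + i] (Data.xWords.getD i [] ++ [25]) &&
          eqG [26, 27 + i] (Data.yWords.getD i [] ++ [26]) &&
            (Data.xWords.getD i []).all (fun n => decide (27 ≤ n) && decide (n < 31)) &&
              (Data.yWords.getD i []).all (fun n => decide (27 ≤ n) && decide (n < 31))) &&
  eqG [31, 31] [] && eqG [25, 25, 25] [] && eqG [26, 26, 26] [] && eqG [31, 25] [25, 31] &&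
    eqG [31, 26] [26, 31] && eqG [25, 26] [26, 25] && eqG [32, 25] [25, 26, 32] &&
      eqG [32, 26] [25, 32]

/-- The witnesses for pairs of generators. -/
noncomputable def witsOK : Bool :=
  Data.wits.all (fun w =>
    eqG [w.2.2.1, 27 + w.2.1] [27 + w.2.1, w.2.2.1] &&
      eqG (w.2.2.1 :: w.2.2.2) (w.2.2.2 ++ [27 + w.1, w.2.2.1]) &&
        w.2.2.2.all (fun n => decide (27 ≤ n) && decide (n < 31))) &&
  (List.range 4).all fun i => (List.range 4).all fun j =>
    decide (i = j) || Data.wits.any fun w =>
      (w.1 == i && w.2.1 == j) || (w.1 == j && w.2.1 == i)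

theorem three_ok : threeOK = true ∧ witsOK = true := by decide +kernel

/-- The words of the facts at the prime five. -/
noncomputable def fiveOK : Bool :=
  eqG [39, 40] [41, 40, 39] && eqG [39, 39, 39, 39, 39] [] && eqG [40, 40, 40, 40, 40] [] &&
    eqG [41, 41, 41, 41, 41] [] && eqG [39, 41] [41, 39] && eqG [40, 41] [41, 40] &&
      eqG [42, 39] [39, 41, 42] && eqG [42, 41] [41, 41, 41, 41, 42] &&
        eqG [43, 40] [40, 40, 40, 40, 41, 41, 41, 43] && eqG [43, 41] [41, 43]

theorem five_ok : fiveOK = true := by decide +kernel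

theorem counts : reachCount 2 [25, 26, 27, 28, 29, 30] Data.vOdd = 729 ∧
    reachCount 4 [39, 40, 41] Data.vOdd = 125 ∧ reachCount 4 [41] Data.vOdd = 5 := by decide +kernel

theorem vOdd_ok : (memTest Data.vOdd && decide (dotL Data.vOdd Data.vOdd = 32) &&
    decide (Data.vOdd.length = 24)) = true := by
  decide +kernel

end CfsgLib.Mathieu.CoTwoMult
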