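import Cfsg.Agent.Lib.Mathieu.SRG100

/-!
A strongly regular graph with parameters (77, 16, 0, 4) is the block graph of an S(3,6,22), hence
unique. The points are the independent sets of size 21.

Fix a vertex `v`. On the 60 vertices far from `v` the kernel `kap` (a multiple of the projection of
the eigenspace of `-6` orthogonally to `v` and its neighbours) takes the values 4, 1, -2 and
satisfies `kap * kap = 48 kap`; this singles out the independent sets through `v`.
-/

set_option autoImplicit false

noncomputable section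

namespace CfsgLib.Mathieu.SRG77

open Finset
open scoped Classical

variable {V : Type*} [Fintype V] {G : SimpleGraph V}

theorem card_inter (hG : G.IsSRGWith 77 16 0 4) (u v : V) :
    (G.neighborFinset u ∩ G.neighborFinset v).card =
      if u = v then 16 else if G.Adj u v then 0 else 4 := by
  by_cases huv : u = v
  · subst huv
    rw [if_pos rfl, inter_self, SimpleGraph.card_neighborFinset_eq_degree]
    exact hG.regular u
  · rw [if_neg huv]
    have e : (G.neighborFinset u ∩ G.neighborFinset v).card = Fintype.card (G.commonNeighbors u v) := by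
      rw [← Set.toFinset_card]
      congr 1
      ext w
      simp [SimpleGraph.mem_commonNeighbors]
    rw [e]
    split
    next h => exact hG.of_adj u v h
    next h => exact hG.of_not_adj huv h

theorem card_nbr (hG : G.IsSRGWith 77 16 0 4) (u : V) : (G.neighborFinset u).card = 16 := by
  rw [SimpleGraph.card_neighborFinset_eq_degree]; exact hG.regular u

theorem no_triangle (hG : G.IsSRGWith 77 16 0 4) {x y z : V} (hxy : G.Adj x y) (hxz : G.Adj x z) :
    ¬ G.Adj y z := by
  intro h
  have h0 := card_inter hG y z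
  rw [if_neg h.ne, if_pos h, card_eq_zero] at h0
  have hx : x ∈ G.neighborFinset y ∩ G.neighborFinset z := by simp [hxy.symm, hxz.symm]
  rw [h0] at hx
  simp at hx

/-- Twenty-four times the projection kernel of the eigenspace of `-6`. -/
def ker6 (G : SimpleGraph V) (x y : V) : ℤ :=
  2 + 22 * (if x = y then 1 else 0) - 11 * (if G.Adj x y then 1 else 0)

theorem ker6_symm (x y : V) : ker6 G x y = ker6 G y x := by
  simp only [ker6, SimpleGraph.adj_comm G x y, eq_comm (a := x) (b := y)]

theorem ker6_sq (hG : G.IsSRGWith 77 16 0 4) (x y : V) :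
    ∑ s, ker6 G x s * ker6 G y s = 88 * ker6 G x y := by
  have hc : ∑ s, (if G.Adj x s then (1 : ℤ) else 0) * (if G.Adj y s then 1 else 0) =
      if x = y then 16 else if G.Adj x y then 0 else 4 := by
    have h := card_inter hG x y
    have e : ∑ s, (if G.Adj x s then (1 : ℤ) else 0) * (if G.Adj y s then 1 else 0) =
        ((G.neighborFinset x ∩ G.neighborFinset y).card : ℤ) := by
      simp only [ite_mul, one_mul, zero_mul, ← ite_and]
      rw [sum_boole]
      congr 2
      ext w
      simp
    rw [e, h]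
    split_ifs <;> rfl
  have hk : ∀ z, ∑ s, (if G.Adj z s then (1 : ℤ) else 0) = 16 := fun z => by
    rw [sum_boole, ← SimpleGraph.neighborFinset_eq_filter, card_nbr hG]
    rfl
  have hd : ∀ (z : V) (f : V → ℤ), ∑ s, (if z = s then (1 : ℤ) else 0) * f s = f z := fun z f => by
    simp
  have expand : ∀ s, ker6 G x s * ker6 G y s =
      4 + 44 * (if x = s then 1 else 0) + 44 * (if y = s then 1 else 0)
        - 22 * (if G.Adj x s then 1 else 0) - 22 * (if G.Adj y s then 1 else 0)
        + 484 * ((if x = s then 1 else 0) * (if y = s then 1 else 0))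
        - 242 * ((if x = s then 1 else 0) * (if G.Adj y s then 1 else 0))
        - 242 * ((if y = s then 1 else 0) * (if G.Adj x s then 1 else 0))
        + 121 * ((if G.Adj x s then 1 else 0) * (if G.Adj y s then 1 else 0)) := fun s => by
    simp only [ker6]; ring
  rw [sum_congr rfl fun s _ => expand s]
  simp only [sum_add_distrib, sum_sub_distrib, ← mul_sum, hc, hk, hd]
  simp only [sum_const, card_univ, hG.card, ker6, sum_ite_eq, mem_univ, if_true, nsmul_eq_mul]
  by_cases h : x = y
  · subst h; simp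
  · by_cases ha : G.Adj x y <;> simp [h, ha, Ne.symm h, G.adj_comm y x]

/-- The number of common neighbours lying among the neighbours of `v`. -/
def acnt (G : SimpleGraph V) (v q p : V) : ℕ := (srgPts G v q ∩ srgPts G v p).card

/-- The kernel on the far vertices. -/
def kap (G : SimpleGraph V) (v q p : V) : ℤ :=
  if q = p then 4 else if G.Adj q p then -2 else 4 - 3 * (acnt G v q p : ℤ)

/-- The corresponding combination of rows of `ker6`. -/
def row (G : SimpleGraph V) (v q s : V) : ℤ :=
  6 * ker6 G q s + 3 * ∑ n ∈ srgPts G v q, ker6 G n s + 4 * ker6 G v s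

/-- The inner product over the far vertices. -/
def ip (G : SimpleGraph V) (v : V) (f g : V → ℤ) : ℤ := ∑ s ∈ srgFar G v, f s * g s

theorem mem_far {v q : V} : q ∈ srgFar G v ↔ q ≠ v ∧ ¬ G.Adj v q := by simp [srgFar]

theorem mem_pts {v q n : V} : n ∈ srgPts G v q ↔ G.Adj v n ∧ G.Adj q n := by simp [srgPts]

theorem card_pts (hG : G.IsSRGWith 77 16 0 4) {v q : V} (hq : q ∈ srgFar G v) :
    (srgPts G v q).card = 4 := by
  rw [srgPts, card_inter hG, if_neg (mem_far.1 hq).1.symm, if_neg (mem_far.1 hq).2]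

theorem acnt_comm (v q p : V) : acnt G v q p = acnt G v p q := by rw [acnt, acnt, inter_comm]

theorem kap_comm (v q p : V) : kap G v q p = kap G v p q := by
  simp only [kap, acnt_comm v q p, SimpleGraph.adj_comm G q p, eq_comm (a := q) (b := p)]

theorem acnt_adj (hG : G.IsSRGWith 77 16 0 4) {v q p : V} (h : G.Adj q p) : acnt G v q p = 0 := by
  rw [acnt, card_eq_zero, eq_empty_iff_forall_notMem]
  intro n hn
  rw [mem_inter, mem_pts, mem_pts] at hn
  exact no_triangle hG h hn.1.2 hn.2.2

theorem sum_ker6_pts (hG : G.IsSRGWith 77 16 0 4) {v q : V} (hq : q ∈ srgFar G v) (s : V) :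
    ∑ n ∈ srgPts G v q, ker6 G n s = 8 + 22 * (if s ∈ srgPts G v q then 1 else 0)
      - 11 * ((srgPts G v q ∩ G.neighborFinset s).card : ℤ) := by
  simp only [ker6, sum_sub_distrib, sum_add_distrib, ← mul_sum, sum_const, card_pts hG hq,
    sum_ite_eq', sum_boole]
  rw [← filter_mem_eq_inter]
  simp only [SimpleGraph.mem_neighborFinset, SimpleGraph.adj_comm G _ s]
  simp

theorem row_eq (hG : G.IsSRGWith 77 16 0 4) {v q : V} (hq : q ∈ srgFar G v) (s : V) :
    row G v q s = if s ∈ srgFar G v then 11 * kap G v q s else 0 := by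
  obtain ⟨hqv, hqa⟩ := mem_far.1 hq
  rw [row, sum_ker6_pts hG hq]
  by_cases hsv : s = v
  · subst hsv
    rw [if_neg (fun h => (mem_far.1 h).1 rfl), if_neg (fun h => ((mem_pts.1 h).1).ne rfl),
      show srgPts G s q ∩ G.neighborFinset s = srgPts G s q from
        inter_eq_left.2 fun n hn => by simpa using (mem_pts.1 hn).1, card_pts hG hq]
    have hqs' : ¬ G.Adj q s := fun h => hqa h.symm
    simp [ker6, hqv, hqs', fun h => hqs' (SimpleGraph.Adj.symm h)]
  by_cases hsa : G.Adj v s
  · rw [if_neg (fun h => (mem_far.1 h).2 hsa),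
      show srgPts G v q ∩ G.neighborFinset s = ∅ from eq_empty_iff_forall_notMem.2 fun n hn => by
        rw [mem_inter, mem_pts, SimpleGraph.mem_neighborFinset] at hn
        exact no_triangle hG hsa hn.1.1 hn.2]
    have hqs : q ≠ s := fun e => hqa (e ▸ hsa)
    simp only [ker6, hqs, Ne.symm hsv, hsa, mem_pts, true_and, card_empty, if_false, if_true]
    by_cases h : G.Adj q s <;> simp [h]
  have hs : s ∈ srgFar G v := mem_far.2 ⟨hsv, hsa⟩
  rw [if_pos hs, if_neg (fun h => hsa (mem_pts.1 h).1)]
  have e : srgPts G v q ∩ G.neighborFinset s = srgPts G v q ∩ srgPts G v s := by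
    ext n
    simp only [mem_inter, mem_pts, SimpleGraph.mem_neighborFinset]
    exact ⟨fun h => ⟨h.1, h.1.1, h.2⟩, fun h => ⟨h.1, h.2.2⟩⟩
  rw [e]
  simp only [ker6, Ne.symm hsv, hsa, if_false, kap]
  by_cases h : q = s
  · subst h
    rw [if_pos rfl, if_pos rfl, if_neg (fun h => h.ne rfl), inter_self, card_pts hG hq]
    norm_num
  by_cases h' : G.Adj q s
  · have := acnt_adj hG (v := v) h'
    rw [acnt] at this
    rw [this]
    simp [h, h']
  · simp only [h, h', if_false, acnt]
    ring

theorem row_mul_sum (hG : G.IsSRGWith 77 16 0 4) {v q p : V} (hq : q ∈ srgFar G v)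
    (hp : p ∈ srgFar G v) : ∑ s, row G v q s * row G v p s = 528 * row G v p q := by
  have key : ∀ x, ∑ s, ker6 G x s * row G v p s = 88 * row G v p x := fun x => by
    have e : ∀ s, ker6 G x s * row G v p s = 6 * (ker6 G x s * ker6 G p s)
        + 3 * ∑ n ∈ srgPts G v p, ker6 G x s * ker6 G n s + 4 * (ker6 G x s * ker6 G v s) := fun s => by
      rw [row, ← mul_sum]; ring
    rw [sum_congr rfl fun s _ => e s, sum_add_distrib, sum_add_distrib, ← mul_sum, ← mul_sum,
      ← mul_sum, ker6_sq hG, ker6_sq hG, sum_comm, sum_congr rfl fun n _ => ker6_sq hG x n, ← mul_sum,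
      row, ker6_symm x p, ker6_symm x v, sum_congr rfl fun n _ => ker6_symm x n]
    ring
  have e : ∀ s, row G v q s * row G v p s = 6 * (ker6 G q s * row G v p s)
      + 3 * ∑ n ∈ srgPts G v q, ker6 G n s * row G v p s + 4 * (ker6 G v s * row G v p s) := fun s => by
    rw [row, ← sum_mul]; ring
  rw [sum_congr rfl fun s _ => e s, sum_add_distrib, sum_add_distrib, ← mul_sum, ← mul_sum, ← mul_sum,
    key, key, sum_comm, sum_congr rfl fun n _ => key n, ← mul_sum]
  have h0 : ∀ n ∈ srgPts G v q, row G v p n = 0 := fun n hn => by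
    rw [row_eq hG hp, if_neg fun h => (mem_far.1 h).2 (mem_pts.1 hn).1]
  rw [sum_eq_zero h0, row_eq hG hp v, if_neg fun h => (mem_far.1 h).1 rfl]
  ring

theorem ip_kap (hG : G.IsSRGWith 77 16 0 4) {v q p : V} (hq : q ∈ srgFar G v)
    (hp : p ∈ srgFar G v) : ip G v (kap G v q) (kap G v p) = 48 * kap G v q p := by
  have h := row_mul_sum hG hq hp
  rw [row_eq hG hp q, if_pos hq, ← sum_subset (subset_univ (srgFar G v))
    fun s _ hs => by rw [row_eq hG hq s, if_neg hs, zero_mul]] at h
  rw [sum_congr rfl (g := fun s => 121 * (kap G v q s * kap G v p s)) fun s hs => by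
    rw [row_eq hG hq s, row_eq hG hp s, if_pos hs, if_pos hs]; ring, ← mul_sum, kap_comm v p q] at h
  rw [ip]
  linarith

theorem ip_comm (v : V) (f g : V → ℤ) : ip G v f g = ip G v g f :=
  sum_congr rfl fun _ _ => mul_comm _ _

theorem ip_add (v : V) (f g h : V → ℤ) : ip G v (f + g) h = ip G v f h + ip G v g h := by
  simp [ip, add_mul, sum_add_distrib]

theorem ip_add' (v : V) (f g h : V → ℤ) : ip G v f (g + h) = ip G v f g + ip G v f h := by
  simp [ip, mul_add, sum_add_distrib]

theorem ip_sub (v : V) (f g h : V → ℤ) : ip G v (f - g) h = ip G v f h - ip G v g h := by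
  simp [ip, sub_mul, sum_sub_distrib]

theorem ip_sub' (v : V) (f g h : V → ℤ) : ip G v f (g - h) = ip G v f g - ip G v f h := by
  simp [ip, mul_sub, sum_sub_distrib]

theorem ip_self_nonneg (v : V) (f : V → ℤ) : 0 ≤ ip G v f f :=
  sum_nonneg fun _ _ => mul_self_nonneg _

theorem eq_zero_of_ip {v : V} {f : V → ℤ} (h : ip G v f f = 0) {s : V} (hs : s ∈ srgFar G v) :
    f s = 0 :=
  mul_self_eq_zero.1 ((sum_eq_zero_iff_of_nonneg fun _ _ => mul_self_nonneg _).1 h s hs)

theorem kap_self (v q : V) : kap G v q q = 4 := if_pos rfl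

theorem kap_adj (v : V) {q p : V} (h : G.Adj q p) : kap G v q p = -2 := by
  rw [kap, if_neg h.ne, if_pos h]

theorem kap_cases (hG : G.IsSRGWith 77 16 0 4) {v q p : V} (hq : q ∈ srgFar G v)
    (hp : p ∈ srgFar G v) : kap G v q p = 4 ∨ kap G v q p = 1 ∨ kap G v q p = -2 := by
  have h := ip_self_nonneg (G := G) v (kap G v q + kap G v p)
  simp only [ip_add, ip_add', ip_kap hG hq hq, ip_kap hG hq hp, ip_kap hG hp hq, ip_kap hG hp hp,
    kap_self, kap_comm v p q] at h
  by_cases h1 : q = p
  · exact Or.inl (h1 ▸ kap_self v q)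
  by_cases h2 : G.Adj q p
  · exact Or.inr (Or.inr (kap_adj v h2))
  rw [kap, if_neg h1, if_neg h2] at h ⊢
  omega

theorem kap_four (hG : G.IsSRGWith 77 16 0 4) {v q p : V} (hq : q ∈ srgFar G v) (hp : p ∈ srgFar G v)
    (h4 : kap G v q p = 4) {s : V} (hs : s ∈ srgFar G v) : kap G v q s = kap G v p s := by
  refine sub_eq_zero.1 (eq_zero_of_ip (f := kap G v q - kap G v p) ?_ hs)
  simp only [ip_sub, ip_sub', ip_kap hG hq hq, ip_kap hG hq hp, ip_kap hG hp hq, ip_kap hG hp hp,
    kap_self, kap_comm v p q, h4]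
  norm_num

theorem card_far (hG : G.IsSRGWith 77 16 0 4) (v : V) : (srgFar G v).card = 60 := by
  have h : srgFar G v = (insert v (G.neighborFinset v))ᶜ := by
    ext q; simp [srgFar]
  rw [h, card_compl, hG.card, card_insert_of_notMem (by simp), card_nbr hG]

theorem card_adj_far (hG : G.IsSRGWith 77 16 0 4) {v q : V} (hq : q ∈ srgFar G v) :
    ((srgFar G v).filter fun p => G.Adj q p).card = 12 := by
  have e : (srgFar G v).filter (fun p => G.Adj q p) = G.neighborFinset q \ G.neighborFinset v := by
    ext p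
    simp only [mem_filter, mem_far, mem_sdiff, SimpleGraph.mem_neighborFinset]
    exact ⟨fun h => ⟨h.2, h.1.2⟩, fun h => ⟨⟨fun e => (mem_far.1 hq).2 (e ▸ h.1.symm), h.2⟩, h.1⟩⟩
  rw [e, card_sdiff, card_inter hG, if_neg (mem_far.1 hq).1.symm, if_neg (mem_far.1 hq).2,
    card_nbr hG]

theorem sum_acnt (hG : G.IsSRGWith 77 16 0 4) {v q : V} (hq : q ∈ srgFar G v) :
    ∑ p ∈ srgFar G v, acnt G v q p = 60 := by
  have e : ∀ p, acnt G v q p = ∑ n ∈ srgPts G v q, if n ∈ srgPts G v p then 1 else 0 := fun p => by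
    rw [acnt, sum_boole, filter_mem_eq_inter, Nat.cast_id]
  rw [sum_congr rfl fun p _ => e p, sum_comm, sum_congr rfl (g := fun _ => 15) fun n hn => ?_,
    sum_const, card_pts hG hq]
  · rfl
  rw [sum_boole, Nat.cast_id]
  have hn' := mem_pts.1 hn
  have : (srgFar G v).filter (fun p => n ∈ srgPts G v p) = (G.neighborFinset n).erase v := by
    ext p
    simp only [mem_filter, mem_far, mem_pts, mem_erase, SimpleGraph.mem_neighborFinset]
    exact ⟨fun h => ⟨h.1.1, h.2.2.symm⟩,
      fun h => ⟨⟨h.1, fun hv => no_triangle hG hv hn'.1 h.2.symm⟩, hn'.1, h.2.symm⟩⟩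
  rw [this, card_erase_of_mem (by simpa using hn'.1.symm), card_nbr hG]

theorem sum_kap (hG : G.IsSRGWith 77 16 0 4) {v q : V} (hq : q ∈ srgFar G v) :
    ∑ p ∈ srgFar G v, kap G v q p = 0 := by
  have e : ∀ p ∈ srgFar G v, kap G v q p = 4 - 3 * (acnt G v q p : ℤ)
      + (if q = p then 12 else 0) - (if G.Adj q p then 6 else 0) := by
    intro p hp
    by_cases h : q = p
    · subst h
      rw [kap_self, acnt, inter_self, card_pts hG hp, if_pos rfl, if_neg fun h => h.ne rfl]
      norm_num
    by_cases h' : G.Adj q p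
    · rw [kap_adj v h', acnt_adj hG h', if_neg h, if_pos h']
      norm_num
    · rw [kap, if_neg h, if_neg h', if_neg h, if_neg h']
      ring
  rw [sum_congr rfl e, sum_sub_distrib, sum_add_distrib, sum_sub_distrib, ← mul_sum, ← Nat.cast_sum,
    sum_acnt hG hq, sum_const, card_far hG, sum_ite_eq, if_pos hq, ← sum_filter, sum_const,
    card_adj_far hG hq]
  rfl

/-- Counting the values of a function from two moments. -/
theorem count_eq {v : V} {f : V → ℤ} (P : V → Prop) [DecidablePred P] (α β c : ℤ)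
    (hf : ∀ s ∈ srgFar G v, (f s - α) * (f s - β) = if P s then c else 0) :
    c * (((srgFar G v).filter P).card : ℤ) =
      ip G v f f - (α + β) * ∑ s ∈ srgFar G v, f s + (srgFar G v).card * (α * β) := by
  have h := sum_congr rfl hf
  rw [← sum_filter, sum_const, nsmul_eq_mul] at h
  rw [mul_comm, ← h, ip, mul_sum, ← nsmul_eq_mul, ← sum_const, ← sum_sub_distrib, ← sum_add_distrib]
  exact sum_congr rfl fun s _ => by ring

/-- The vertices with the same kernel as `q`. -/
def cls (G : SimpleGraph V) (v q : V) : Finset V := (srgFar G v).filter fun p => kap G v q p = 4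

theorem card_cls (hG : G.IsSRGWith 77 16 0 4) {v q : V} (hq : q ∈ srgFar G v) :
    (cls G v q).card = 4 := by
  have h := count_eq (G := G) (v := v) (f := kap G v q) (fun p => kap G v q p = 4) 1 (-2) 18
    fun s hs => by rcases kap_cases hG hq hs with h | h | h <;> simp [h]
  rw [ip_kap hG hq hq, kap_self, sum_kap hG hq, card_far hG] at h
  push_cast at h
  rw [cls]
  omega

theorem card_one (hG : G.IsSRGWith 77 16 0 4) {v q : V} (hq : q ∈ srgFar G v) :
    ((srgFar G v).filter fun p => kap G v q p = 1).card = 32 := by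
  have h := count_eq (G := G) (v := v) (f := kap G v q) (fun p => kap G v q p = 1) 4 (-2) (-9)
    fun s hs => by rcases kap_cases hG hq hs with h | h | h <;> simp [h]
  rw [ip_kap hG hq hq, kap_self, sum_kap hG hq, card_far hG] at h
  push_cast at h
  omega

theorem acnt_of_four {v q p : V} (hne : q ≠ p) (h : kap G v q p = 4) :
    ¬ G.Adj q p ∧ acnt G v q p = 0 := by
  rw [kap, if_neg hne] at h
  split at h
  · omega
  · exact ⟨‹_›, by omega⟩

/-- A class at distance `-2` contains a neighbour. -/
theorem exists_adj_cls (hG : G.IsSRGWith 77 16 0 4) {v q p : V} (hq : q ∈ srgFar G v)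
    (hp : p ∈ srgFar G v) (h : kap G v q p = -2) : ∃ p' ∈ cls G v p, G.Adj q p' := by
  by_contra hno
  push Not at hno
  have hdisj : ((cls G v p : Finset V) : Set V).PairwiseDisjoint fun p' => srgPts G v p' := by
    intro x hx y hy hne
    obtain ⟨hxf, hx4⟩ := mem_filter.1 hx
    obtain ⟨hyf, hy4⟩ := mem_filter.1 hy
    have : kap G v x y = 4 := by rw [← kap_four hG hp hxf hx4 hyf, hy4]
    exact disjoint_iff_inter_eq_empty.2 (card_eq_zero.1 (acnt_of_four hne this).2)
  have hU : (cls G v p).biUnion (srgPts G v) = G.neighborFinset v := by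
    refine eq_of_subset_of_card_le (biUnion_subset.2 fun x _ n hn => by
      simpa using (mem_pts.1 hn).1) ?_
    rw [card_biUnion hdisj, sum_congr rfl (g := fun _ => 4) fun x (hx : x ∈ cls G v p) =>
      card_pts hG (mem_filter.1 hx).1, sum_const, card_cls hG hp, card_nbr hG]
    rfl
  have hsum : ∑ x ∈ cls G v p, acnt G v q x = 4 := by
    have hd : ((cls G v p : Finset V) : Set V).PairwiseDisjoint
        fun x => srgPts G v q ∩ srgPts G v x := fun x hx y hy hne =>
      (hdisj hx hy hne).mono inter_subset_right inter_subset_right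
    simp only [acnt]
    rw [← card_biUnion hd, ← inter_biUnion, hU, inter_eq_left.2 fun n hn => by
      simpa using (mem_pts.1 hn).1, card_pts hG hq]
  have h2 : ∀ x ∈ cls G v p, acnt G v q x = 2 := by
    intro x hx
    obtain ⟨hxf, hx4⟩ := mem_filter.1 hx
    have hqx : kap G v q x = -2 := by
      rw [kap_comm, ← kap_four hG hp hxf hx4 hq, kap_comm, h]
    have hne : q ≠ x := fun e => by rw [← e, kap_self] at hqx; omega
    rw [kap, if_neg hne, if_neg (hno x hx)] at hqx
    omega
  rw [sum_congr rfl h2, sum_const, card_cls hG hp] at hsum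
  exact absurd hsum (by decide)

/-- The far vertices at distance `-2` from both of a pair at distance `1`. -/
def bothNeg (G : SimpleGraph V) (v P X : V) : Finset V :=
  (srgFar G v).filter fun s => kap G v P s = -2 ∧ kap G v X s = -2

theorem card_bothNeg (hG : G.IsSRGWith 77 16 0 4) {v P X : V} (hP : P ∈ srgFar G v)
    (hX : X ∈ srgFar G v) (h1 : kap G v P X = 1) : (bothNeg G v P X).card = 12 := by
  have h4P : ∀ s ∈ srgFar G v, kap G v P s = 4 → kap G v X s = 1 := fun s hs h => by
    rw [kap_comm v X s, ← kap_four hG hP hs h hX, h1]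
  have h4X : ∀ s ∈ srgFar G v, kap G v X s = 4 → kap G v P s = 1 := fun s hs h => by
    rw [kap_comm v P s, ← kap_four hG hX hs h hP, kap_comm, h1]
  have h := count_eq (G := G) (v := v) (f := kap G v P + kap G v X)
    (fun s => kap G v P s = 4 ∨ kap G v X s = 4 ∨ (kap G v P s = -2 ∧ kap G v X s = -2)) (-1) 2 18
    fun s hs => by
      rcases kap_cases hG hP hs with a | a | a <;> rcases kap_cases hG hX hs with b | b | b <;>
        first
          | (simp [Pi.add_apply, a, b]; done)
          | (exfalso; have := h4P s hs a; omega)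
          | (exfalso; have := h4X s hs b; omega)
  simp only [ip_add, ip_add', ip_kap hG hP hP, ip_kap hG hP hX, ip_kap hG hX hP, ip_kap hG hX hX,
    kap_self, kap_comm v X P, h1, Pi.add_apply, sum_add_distrib, sum_kap hG hP, sum_kap hG hX,
    card_far hG] at h
  have h' : (18 : ℤ) * (((srgFar G v).filter (fun s => kap G v P s = 4) ∪
      ((srgFar G v).filter (fun s => kap G v X s = 4) ∪
      (srgFar G v).filter fun s => kap G v P s = -2 ∧ kap G v X s = -2)).card : ℤ) = 360 := by
    refine Eq.trans ?_ (h.trans (by norm_num))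
    congr 3
    ext s
    simp only [mem_filter, mem_union]
    tauto
  rw [card_union_of_disjoint, card_union_of_disjoint] at h'
  · have hP4 := card_cls hG hP
    have hX4 := card_cls hG hX
    rw [cls] at hP4 hX4
    rw [bothNeg]
    omega
  · rw [disjoint_left]
    intro s hs hs'
    rw [mem_filter] at hs hs'
    omega
  · rw [disjoint_left]
    intro s hs hs'
    rw [mem_union, mem_filter, mem_filter] at hs'
    rw [mem_filter] at hs
    have := h4P s hs.1 hs.2
    rcases hs' with h' | h' <;> omega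

theorem bothNeg_pair (hG : G.IsSRGWith 77 16 0 4) {v P X a b : V} (hP : P ∈ srgFar G v)
    (hX : X ∈ srgFar G v) (h1 : kap G v P X = 1) (ha : a ∈ bothNeg G v P X)
    (hb : b ∈ bothNeg G v P X) (hne : kap G v a b ≠ 4) : kap G v a b = 1 := by
  obtain ⟨haf, hPa, hXa⟩ := mem_filter.1 ha
  obtain ⟨hbf, hPb, hXb⟩ := mem_filter.1 hb
  rcases kap_cases hG haf hbf with h | h | h
  · exact absurd h hne
  · exact h
  · exfalso
    have h0 : ip G v (kap G v P + kap G v a + kap G v b) (kap G v P + kap G v a + kap G v b) = 0 := by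
      simp only [ip_add, ip_add', ip_kap hG, hP, haf, hbf, kap_self, kap_comm v a P, kap_comm v b P,
        kap_comm v b a, hPa, hPb, h]
      norm_num
    have := eq_zero_of_ip h0 hX
    simp only [Pi.add_apply, h1, kap_comm v a X, kap_comm v b X, hXa, hXb] at this
    omega

/-- The auxiliary vertex `X'` of a pair. -/
theorem exists_third (hG : G.IsSRGWith 77 16 0 4) {v P X : V} (hP : P ∈ srgFar G v)
    (hX : X ∈ srgFar G v) (h1 : kap G v P X = 1) :
    ∃ Y ∈ srgFar G v, kap G v P Y = 1 ∧ kap G v X Y = 1 ∧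
      ∀ s ∈ bothNeg G v P X, kap G v Y s ≠ 1 := by
  have hT := card_bothNeg hG hP hX h1
  obtain ⟨a, ha⟩ := card_pos.1 (by omega : 0 < (bothNeg G v P X).card)
  have haf := (mem_filter.1 ha).1
  obtain ⟨b, hb, hb'⟩ := exists_mem_notMem_of_card_lt_card
    (s := cls G v a) (t := bothNeg G v P X) (by rw [card_cls hG haf]; omega)
  have hbf := (mem_filter.1 hb).1
  obtain ⟨c, hc, hc'⟩ := exists_mem_notMem_of_card_lt_card
    (s := cls G v a ∪ cls G v b) (t := bothNeg G v P X) (by
      refine lt_of_le_of_lt (card_union_le _ _) ?_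
      rw [card_cls hG haf, card_cls hG hbf]; omega)
  have hcf := (mem_filter.1 hc).1
  have hab4 : kap G v a b ≠ 4 := fun h => hb' (mem_filter.2 ⟨hbf, h⟩)
  have hac4 : kap G v a c ≠ 4 := fun h => hc' (mem_union_left _ (mem_filter.2 ⟨hcf, h⟩))
  have hbc4 : kap G v b c ≠ 4 := fun h => hc' (mem_union_right _ (mem_filter.2 ⟨hcf, h⟩))
  have hab := bothNeg_pair hG hP hX h1 ha hb hab4
  have hac := bothNeg_pair hG hP hX h1 ha hc hac4
  have hbc := bothNeg_pair hG hP hX h1 hb hc hbc4
  obtain ⟨-, hPa, hXa⟩ := mem_filter.1 ha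
  obtain ⟨-, hPb, hXb⟩ := mem_filter.1 hb
  obtain ⟨-, hPc, hXc⟩ := mem_filter.1 hc
  set f := kap G v P + kap G v X + kap G v a + kap G v b + kap G v c with hf
  have hff : ip G v f f = 192 := by
    simp only [hf, ip_add, ip_add', ip_kap hG, hP, hX, haf, hbf, hcf, kap_self, kap_comm v X P,
      kap_comm v a P, kap_comm v b P, kap_comm v c P, kap_comm v a X, kap_comm v b X,
      kap_comm v c X, kap_comm v b a, kap_comm v c a, kap_comm v c b, h1, hPa, hPb, hPc, hXa, hXb,
      hXc, hab, hac, hbc]
    norm_num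
  have hfs : ∀ s ∈ srgFar G v, ip G v f (kap G v s) = 48 * f s := fun s hs => by
    simp only [hf, ip_add, ip_kap hG, hP, hX, haf, hbf, hcf, hs, Pi.add_apply]
    ring
  have hrange : ∀ s ∈ srgFar G v, f s = -4 ∨ f s = -1 ∨ f s = 2 := by
    intro s hs
    have h2 := ip_self_nonneg (G := G) v (f + kap G v s)
    have h3 := ip_self_nonneg (G := G) v (f - kap G v s)
    simp only [ip_add, ip_add', ip_sub, ip_sub', ip_comm v (kap G v s) f, hfs s hs, hff,
      ip_kap hG hs hs, kap_self] at h2 h3
    have e : f s = kap G v P s + kap G v X s + kap G v a s + kap G v b s + kap G v c s := rfl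
    have := kap_cases hG hP hs
    have := kap_cases hG hX hs
    have := kap_cases hG haf hs
    have := kap_cases hG hbf hs
    have := kap_cases hG hcf hs
    omega
  have hcount := count_eq (G := G) (v := v) (f := f) (fun s => f s = -4) (-1) 2 18 fun s hs => by
    rcases hrange s hs with h | h | h <;> simp [h]
  rw [hff, card_far hG] at hcount
  have hsum : ∑ s ∈ srgFar G v, f s = 0 := by
    simp only [hf, Pi.add_apply, sum_add_distrib, sum_kap hG, hP, hX, haf, hbf, hcf]
    norm_num
  rw [hsum] at hcount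
  push_cast at hcount
  obtain ⟨Y, hY⟩ := card_pos.1 (by omega : 0 < ((srgFar G v).filter fun s => f s = -4).card)
  obtain ⟨hYf, hY4⟩ := mem_filter.1 hY
  have hz : ∀ s ∈ srgFar G v, f s + kap G v Y s = 0 := fun s hs => by
    refine eq_zero_of_ip (f := f + kap G v Y) ?_ hs
    simp only [ip_add, ip_add', ip_comm v (kap G v Y) f, hfs Y hYf, hff, hY4, ip_kap hG hYf hYf,
      kap_self]
    norm_num
  have hPY := hz P hP
  have hXY := hz X hX
  simp only [hf, Pi.add_apply, kap_self, kap_comm v X P, kap_comm v a P, kap_comm v b P,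
    kap_comm v c P, kap_comm v a X, kap_comm v b X, kap_comm v c X, h1, hPa, hPb, hPc, hXa, hXb,
    hXc, kap_comm v Y P, kap_comm v Y X] at hPY hXY
  refine ⟨Y, hYf, by omega, by omega, fun s hs hs1 => ?_⟩
  -- the twelve vertices form the three classes
  have hcover : cls G v a ∪ cls G v b ∪ cls G v c = bothNeg G v P X := by
    have hd : ∀ x y, x ∈ srgFar G v → y ∈ srgFar G v → kap G v x y ≠ 4 →
        Disjoint (cls G v x) (cls G v y) := fun x y hx hy h => by
      rw [disjoint_left]
      intro z hz1 hz2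
      obtain ⟨hzf, hz4⟩ := mem_filter.1 hz1
      exact h (by rw [kap_four hG hx hzf hz4 hy, kap_comm, (mem_filter.1 hz2).2])
    refine eq_of_subset_of_card_le ?_ ?_
    · have hsub : ∀ x ∈ bothNeg G v P X, cls G v x ⊆ bothNeg G v P X := fun x hx z hz1 => by
        obtain ⟨hxf, hx1, hx2⟩ := mem_filter.1 hx
        obtain ⟨hzf, hz4⟩ := mem_filter.1 hz1
        exact mem_filter.2 ⟨hzf, by rw [kap_comm, ← kap_four hG hxf hzf hz4 hP, kap_comm, hx1],
          by rw [kap_comm, ← kap_four hG hxf hzf hz4 hX, kap_comm, hx2]⟩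
      exact union_subset (union_subset (hsub a ha) (hsub b hb)) (hsub c hc)
    · rw [card_union_of_disjoint (disjoint_union_left.2 ⟨hd a c haf hcf hac4, hd b c hbf hcf hbc4⟩),
        card_union_of_disjoint (hd a b haf hbf hab4), card_cls hG haf, card_cls hG hbf,
        card_cls hG hcf, hT]
  obtain ⟨hsf, hPs, hXs⟩ := mem_filter.1 hs
  have hzs := hz s hsf
  simp only [hf, Pi.add_apply, hPs, hXs, hs1] at hzs
  rw [← hcover, mem_union, mem_union] at hs
  rcases hs with (h | h) | h <;> obtain ⟨-, h4⟩ := mem_filter.1 h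
  · have e1 := kap_four hG haf hsf h4 hbf
    have e2 := kap_four hG haf hsf h4 hcf
    rw [hab, kap_comm] at e1
    rw [hac, kap_comm] at e2
    omega
  · have e1 := kap_four hG hbf hsf h4 haf
    have e2 := kap_four hG hbf hsf h4 hcf
    rw [kap_comm v b a, hab, kap_comm] at e1
    rw [hbc, kap_comm] at e2
    omega
  · have e1 := kap_four hG hcf hsf h4 haf
    have e2 := kap_four hG hcf hsf h4 hbf
    rw [kap_comm v c a, hac, kap_comm] at e1
    rw [kap_comm v c b, hbc, kap_comm] at e2
    omega

/-- The independent sets of size 21. -/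
def IsPoint (G : SimpleGraph V) (C : Finset V) : Prop :=
  C.card = 21 ∧ ∀ a ∈ C, ∀ b ∈ C, ¬ G.Adj a b

theorem point_nbrs (hG : G.IsSRGWith 77 16 0 4) {C : Finset V} (hC : IsPoint G C) {u : V}
    (hu : u ∉ C) : (C ∩ G.neighborFinset u).card = 6 := by
  set d : V → ℤ := fun w => ∑ c ∈ C, if G.Adj w c then 1 else 0 with hd
  have hk : ∀ c, ∑ w, (if G.Adj w c then (1 : ℤ) else 0) = 16 := fun c => by
    rw [sum_boole]
    simp only [SimpleGraph.adj_comm G _ c]
    rw [← SimpleGraph.neighborFinset_eq_filter, card_nbr hG]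
    rfl
  have h0 : ∀ c ∈ C, d c = 0 := fun c hc => sum_eq_zero fun c' hc' => if_neg (hC.2 c hc c' hc')
  have h1 : ∑ w, d w = 336 := by
    simp only [hd]
    rw [sum_comm, sum_congr rfl fun c _ => hk c, sum_const, hC.1]
    rfl
  have h2 : ∑ w, d w * d w = 2016 := by
    simp only [hd, sum_mul_sum]
    rw [sum_comm, sum_congr rfl fun c _ => sum_comm,
      sum_congr rfl (g := fun c => ∑ c' ∈ C, if c = c' then (16 : ℤ) else 4) fun c hc =>
        sum_congr rfl fun c' hc' => ?_,
      sum_congr rfl (g := fun _ => (96 : ℤ)) fun c hc => ?_, sum_const, hC.1]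
    · rfl
    · rw [← add_sum_erase C _ hc, if_pos rfl, sum_congr rfl (g := fun _ => (4 : ℤ)) fun c' hc' =>
        if_neg (ne_of_mem_erase hc').symm, sum_const, card_erase_of_mem hc, hC.1]
      rfl
    · simp only [ite_mul, one_mul, zero_mul, ← ite_and]
      rw [sum_boole, show (Finset.univ.filter fun w => G.Adj w c ∧ G.Adj w c') =
        G.neighborFinset c ∩ G.neighborFinset c' by ext w; simp [SimpleGraph.adj_comm G w],
        card_inter hG, if_neg (hC.2 c hc c' hc')]
      split_ifs <;> rfl
  have hz : ∑ w ∈ Cᶜ, (d w - 6) * (d w - 6) = 0 := by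
    have e1 : ∑ w ∈ Cᶜ, d w = 336 := by
      rw [← h1, ← sum_add_sum_compl C d, sum_eq_zero h0, zero_add]
    have e2 : ∑ w ∈ Cᶜ, d w * d w = 2016 := by
      rw [← h2, ← sum_add_sum_compl C (fun w => d w * d w),
        sum_eq_zero fun c (hc : c ∈ C) => (by rw [h0 c hc, mul_zero] : d c * d c = 0), zero_add]
    have : ∀ w, (d w - 6) * (d w - 6) = d w * d w - 12 * d w + 36 := fun w => by ring
    rw [sum_congr rfl fun w _ => this w, sum_add_distrib, sum_sub_distrib, ← mul_sum, e1, e2,
      sum_const, card_compl, hG.card, hC.1]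
    rfl
  have := mul_self_eq_zero.1
    ((sum_eq_zero_iff_of_nonneg fun w _ => mul_self_nonneg _).1 hz u (mem_compl.2 hu))
  have he : d u = ((C ∩ G.neighborFinset u).card : ℤ) := by
    simp only [hd, sum_boole]
    rw [← filter_mem_eq_inter]
    simp
  omega

/-- In an independent 21-set through `v` the kernel is 4 or 1. -/
theorem point_kap (hG : G.IsSRGWith 77 16 0 4) {C : Finset V} (hC : IsPoint G C) {v : V}
    (hv : v ∈ C) {q p : V} (hq : q ∈ C) (hp : p ∈ C) (hqv : q ≠ v) (hpv : p ≠ v) :
    kap G v q p ≠ -2 := by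
  intro hqp
  have hfar : ∀ c ∈ C.erase v, c ∈ srgFar G v := fun c hc =>
    mem_far.2 ⟨ne_of_mem_erase hc, fun h => hC.2 v hv c (mem_of_mem_erase hc) h⟩
  have hqf := hfar q (mem_erase.2 ⟨hqv, hq⟩)
  have hpf := hfar p (mem_erase.2 ⟨hpv, hp⟩)
  have hA : ∀ u ∈ srgFar G v, ∑ c ∈ C.erase v, acnt G v u c = 20 := by
    intro u hu
    have e : ∀ c, acnt G v u c = ∑ n ∈ srgPts G v u, if n ∈ srgPts G v c then 1 else 0 := fun c => by
      rw [acnt, sum_boole, filter_mem_eq_inter, Nat.cast_id]
    rw [sum_congr rfl fun c _ => e c, sum_comm, sum_congr rfl (g := fun _ => 5) fun n hn => ?_,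
      sum_const, card_pts hG hu]
    · rfl
    rw [sum_boole, Nat.cast_id]
    have hn' := mem_pts.1 hn
    have hnC : n ∉ C := fun h => hC.2 v hv n h hn'.1
    have : (C.erase v).filter (fun c => n ∈ srgPts G v c) = (C ∩ G.neighborFinset n).erase v := by
      ext c
      simp only [mem_filter, mem_erase, mem_pts, mem_inter, SimpleGraph.mem_neighborFinset]
      exact ⟨fun h => ⟨h.1.1, h.1.2, h.2.2.symm⟩, fun h => ⟨⟨h.1, h.2.1⟩, hn'.1, h.2.2.symm⟩⟩
    rw [this, card_erase_of_mem (by simp [hv, hn'.1.symm]), point_nbrs hG hC hnC]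
  -- the sum of the kernel over the set is 32 inside and -16 outside
  have hsum : ∀ u ∈ srgFar G v, ∑ c ∈ C.erase v, kap G v u c = if u ∈ C then 32 else -16 := by
    intro u hu
    have e : ∀ c ∈ C.erase v, kap G v u c = 4 - 3 * (acnt G v u c : ℤ)
        + (if u = c then 12 else 0) - (if G.Adj u c then 6 else 0) := by
      intro c hc
      by_cases h : u = c
      · subst h
        rw [kap_self, acnt, inter_self, card_pts hG hu, if_pos rfl, if_neg fun h => h.ne rfl]
        norm_num
      by_cases h' : G.Adj u c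
      · rw [kap_adj v h', acnt_adj hG h', if_neg h, if_pos h']
        norm_num
      · rw [kap, if_neg h, if_neg h', if_neg h, if_neg h']
        ring
    rw [sum_congr rfl e, sum_sub_distrib, sum_add_distrib, sum_sub_distrib, ← mul_sum,
      ← Nat.cast_sum, hA u hu, sum_const, card_erase_of_mem hv, hC.1, sum_ite_eq, ← sum_filter,
      sum_const]
    by_cases huC : u ∈ C
    · rw [if_pos huC, if_pos (mem_erase.2 ⟨(mem_far.1 hu).1, huC⟩),
        show (C.erase v).filter (fun c => G.Adj u c) = ∅ from filter_eq_empty_iff.2 fun c hc =>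
          hC.2 u huC c (mem_of_mem_erase hc)]
      rfl
    · rw [if_neg huC, if_neg (fun h => huC (mem_of_mem_erase h)),
        show (C.erase v).filter (fun c => G.Adj u c) = C ∩ G.neighborFinset u by
          ext c
          simp only [mem_filter, mem_erase, mem_inter, SimpleGraph.mem_neighborFinset]
          exact ⟨fun h => ⟨h.1.2, h.2⟩,
            fun h => ⟨⟨fun e => (mem_far.1 hu).2 ((e ▸ h.2).symm), h.1⟩, h.2⟩⟩,
        point_nbrs hG hC huC]
      rfl
  obtain ⟨p', hp', hadj⟩ := exists_adj_cls hG hqf hpf hqp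
  obtain ⟨hp'f, hp'4⟩ := mem_filter.1 hp'
  refine hC.2 q hq p' ?_ hadj
  by_contra hp'C
  have e1 := hsum p hpf
  have e2 := hsum p' hp'f
  rw [if_pos hp, sum_congr rfl fun c hc => kap_four hG hpf hp'f hp'4 (hfar c hc)] at e1
  rw [if_neg hp'C, e1] at e2
  omega

/-- A pair at distance `1` lies with `v` in exactly one independent 21-set. -/
theorem existsUnique_point (hG : G.IsSRGWith 77 16 0 4) {v P X : V} (hP : P ∈ srgFar G v)
    (hX : X ∈ srgFar G v) (h1 : kap G v P X = 1) :
    ∃! C, IsPoint G C ∧ v ∈ C ∧ P ∈ C ∧ X ∈ C := by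
  obtain ⟨Y, hY, hPY, hXY, hYT⟩ := exists_third hG hP hX h1
  set g := kap G v P + kap G v X - kap G v Y with hg
  have hge : ∀ s, g s = kap G v P s + kap G v X s - kap G v Y s := fun s => rfl
  have hrange : ∀ s ∈ srgFar G v, g s = 4 ∨ g s = 1 ∨ g s = -2 := by
    intro s hs
    have := hge s
    have cP := kap_cases hG hP hs
    have cX := kap_cases hG hX hs
    have cY := kap_cases hG hY hs
    rcases cP with a | a | a
    · have := (kap_comm v X s).trans (kap_four hG hP hs a hX).symm
      have := (kap_comm v Y s).trans (kap_four hG hP hs a hY).symm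
      omega
    all_goals rcases cX with b | b | b
    all_goals first
      | (have := (kap_comm v P s).trans (kap_four hG hX hs b hP).symm
         have := (kap_comm v Y s).trans (kap_four hG hX hs b hY).symm
         have := kap_comm (G := G) v X P
         omega)
      | (rcases cY with c | c | c
         · have := (kap_comm v P s).trans (kap_four hG hY hs c hP).symm
           have := (kap_comm v X s).trans (kap_four hG hY hs c hX).symm
           have := kap_comm (G := G) v Y P
           have := kap_comm (G := G) v Y X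
           omega
         all_goals first
           | omega
           | exact absurd c (hYT s (mem_filter.2 ⟨hs, a, b⟩)))
  have hgg : ip G v g g = 480 := by
    simp only [hg, ip_add, ip_add', ip_sub, ip_sub', ip_kap hG, hP, hX, hY, kap_self,
      kap_comm v X P, kap_comm v Y P, kap_comm v Y X, h1, hPY, hXY]
    norm_num
  have hgs : ∀ s ∈ srgFar G v, ip G v g (kap G v s) = 48 * g s := fun s hs => by
    simp only [hg, ip_add, ip_sub, ip_kap hG, hP, hX, hY, hs, Pi.add_apply, Pi.sub_apply]
    ring
  have hsum : ∑ s ∈ srgFar G v, g s = 0 := by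
    simp only [hg, Pi.add_apply, Pi.sub_apply, sum_add_distrib, sum_sub_distrib, sum_kap hG, hP, hX,
      hY]
    norm_num
  have hno1 := count_eq (G := G) (v := v) (f := g) (fun s => g s = 1) 4 (-2) (-9) fun s hs => by
    rcases hrange s hs with h | h | h <;> simp [h]
  rw [hgg, hsum, card_far hG] at hno1
  push_cast at hno1
  have h42 : ∀ s ∈ srgFar G v, g s = 4 ∨ g s = -2 := by
    intro s hs
    refine (hrange s hs).imp id fun h => h.resolve_left fun h => ?_
    have : 0 < ((srgFar G v).filter fun s => g s = 1).card := card_pos.2 ⟨s, mem_filter.2 ⟨hs, h⟩⟩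
    omega
  set C := (srgFar G v).filter fun s => g s = 4 with hCdef
  have hC20 : C.card = 20 := by
    have := count_eq (G := G) (v := v) (f := g) (fun s => g s = 4) (-2) (-2) 36 fun s hs => by
      rcases h42 s hs with h | h <;> simp [h]
    rw [hgg, hsum, card_far hG] at this
    push_cast at this
    rw [hCdef]
    omega
  have hind : ∀ s ∈ C, ∀ t ∈ C, ¬ G.Adj s t := by
    intro s hs t ht hst
    obtain ⟨hsf, hs4⟩ := mem_filter.1 hs
    obtain ⟨htf, ht4⟩ := mem_filter.1 ht
    have h := ip_self_nonneg (G := G) v (g - kap G v s - kap G v t)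
    simp only [ip_sub, ip_sub', ip_comm v (kap G v s) g, ip_comm v (kap G v t) g, hgs s hsf,
      hgs t htf, hgg, hs4, ht4, ip_kap hG, hsf, htf, kap_self, kap_comm v t s, kap_adj v hst] at h
    omega
  have hvC : v ∉ C := fun h => (mem_far.1 (mem_filter.1 h).1).1 rfl
  have hPC : P ∈ C := mem_filter.2 ⟨hP, by
    rw [hge, kap_self, kap_comm v X P, kap_comm v Y P, h1, hPY]; rfl⟩
  have hXC : X ∈ C := mem_filter.2 ⟨hX, by rw [hge, kap_self, kap_comm v Y X, h1, hXY]; rfl⟩
  refine ⟨insert v C, ⟨⟨by rw [card_insert_of_notMem hvC, hC20], ?_⟩, mem_insert_self _ _,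
    mem_insert_of_mem hPC, mem_insert_of_mem hXC⟩, ?_⟩
  · intro a ha b hb
    rcases mem_insert.1 ha with rfl | ha <;> rcases mem_insert.1 hb with rfl | hb
    · exact fun h => h.ne rfl
    · exact (mem_far.1 (mem_filter.1 hb).1).2
    · exact fun h => (mem_far.1 (mem_filter.1 ha).1).2 h.symm
    · exact hind a ha b hb
  · rintro D ⟨hD, hvD, hPD, hXD⟩
    have hDf : ∀ c ∈ D.erase v, c ∈ srgFar G v := fun c hc =>
      mem_far.2 ⟨ne_of_mem_erase hc, fun h => hD.2 v hvD c (mem_of_mem_erase hc) h⟩
    have hD20 : (D.erase v).card = 20 := by rw [card_erase_of_mem hvD, hD.1]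
    -- a member outside `C` is in the class of `Y`, which forces a small set
    have hmem : ∀ c ∈ D.erase v, g c = 4 ∨ kap G v Y c = 4 := by
      intro c hc
      obtain ⟨hcv, hcD⟩ := mem_erase.1 hc
      have hcf := hDf c hc
      have := hge c
      have a := point_kap hG hD hvD hPD hcD (mem_far.1 hP).1 hcv
      have b := point_kap hG hD hvD hXD hcD (mem_far.1 hX).1 hcv
      have := kap_cases hG hP hcf
      have := kap_cases hG hX hcf
      have := kap_cases hG hY hcf
      have := h42 c hcf
      omega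
    have hsub : D.erase v ⊆ C := by
      intro c hc
      refine mem_filter.2 ⟨hDf c hc, (hmem c hc).resolve_right fun hYc => ?_⟩
      have hle : (D.erase v).card ≤ (cls G v Y).card + (cls G v P).card + (cls G v X).card := by
        refine le_trans (card_le_card (t := cls G v Y ∪ cls G v P ∪ cls G v X) fun d hd => ?_)
          ((card_union_le _ _).trans (Nat.add_le_add_right (card_union_le _ _) _))
        have hdf := hDf d hd
        obtain ⟨hdv, hdD⟩ := mem_erase.1 hd
        obtain ⟨hcv, hcD⟩ := mem_erase.1 hc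
        rcases hmem d hd with h | h
        · have := hge d
          have hYd : kap G v Y d ≠ -2 := by
            rw [kap_four hG hY (hDf c hc) hYc hdf]
            exact point_kap hG hD hvD hcD hdD hcv hdv
          have := kap_cases hG hP hdf
          have := kap_cases hG hX hdf
          have := kap_cases hG hY hdf
          have h' : kap G v P d = 4 ∨ kap G v X d = 4 := by omega
          simp only [mem_union, cls, mem_filter]
          tauto
        · simp only [mem_union, cls, mem_filter]
          tauto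
      rw [hD20, card_cls hG hY, card_cls hG hP, card_cls hG hX] at hle
      omega
    have heq := eq_of_subset_of_card_le hsub (by rw [hC20, hD20])
    rw [← heq, insert_erase hvD]

/-- The independent 21-sets. -/
abbrev Pt (G : SimpleGraph V) : Type _ := {C : Finset V // IsPoint G C}

/-- The independent 21-sets through a vertex. -/
def ptsAt (G : SimpleGraph V) (v : V) : Finset (Pt G) := univ.filter fun C => v ∈ C.1

theorem card_ptsAt_inter (hG : G.IsSRGWith 77 16 0 4) {v q : V} (hq : q ∈ srgFar G v) :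
    (ptsAt G v ∩ ptsAt G q).card = 2 := by
  set U := (srgFar G v).filter fun p => kap G v q p = 1
  have hU : U.card = 32 := card_one hG hq
  have hfib : ∀ C ∈ ptsAt G v ∩ ptsAt G q, (U.filter fun X => X ∈ C.1).card = 16 := by
    intro C hC
    simp only [ptsAt, mem_inter, mem_filter, mem_univ, true_and] at hC
    have e : U.filter (fun X => X ∈ C.1) = (C.1.erase v) \ cls G v q := by
      ext X
      simp only [U, mem_filter, mem_sdiff, mem_erase, cls]
      constructor
      · rintro ⟨⟨hXf, h1⟩, hXC⟩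
        exact ⟨⟨(mem_far.1 hXf).1, hXC⟩, fun h => by omega⟩
      · rintro ⟨⟨hXv, hXC⟩, h4⟩
        have hXf : X ∈ srgFar G v := mem_far.2 ⟨hXv, fun h => C.2.2 v hC.1 X hXC h⟩
        have := point_kap hG C.2 hC.1 hC.2 hXC (mem_far.1 hq).1 hXv
        have := kap_cases hG hq hXf
        exact ⟨⟨hXf, by
          rcases this with h | h | h
          · exact absurd ⟨hXf, h⟩ h4
          · exact h
          · omega⟩, hXC⟩
    -- the class of `q` lies in the set
    have hcls : cls G v q ⊆ C.1.erase v := by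
      intro p hp
      obtain ⟨hpf, hp4⟩ := mem_filter.1 hp
      obtain ⟨D, hDm, hDu⟩ : ∃ X ∈ C.1.erase v, kap G v q X = 1 := by
        by_contra hno
        push Not at hno
        have hsub : C.1.erase v ⊆ cls G v q := fun X hX => by
          obtain ⟨hXv, hXC⟩ := mem_erase.1 hX
          have hXf : X ∈ srgFar G v := mem_far.2 ⟨hXv, fun h => C.2.2 v hC.1 X hXC h⟩
          refine mem_filter.2 ⟨hXf, ?_⟩
          have := point_kap hG C.2 hC.1 hC.2 hXC (mem_far.1 hq).1 hXv
          have := hno X hX
          have := kap_cases hG hq hXf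
          omega
        have := card_le_card hsub
        rw [card_erase_of_mem hC.1, C.2.1, card_cls hG hq] at this
        omega
      refine mem_erase.2 ⟨(mem_far.1 hpf).1, ?_⟩
      -- replace `q` by `p` in the pair
      by_contra hpC
      obtain ⟨hDv, hDC⟩ := mem_erase.1 hDm
      have hDf : D ∈ srgFar G v := mem_far.2 ⟨hDv, fun h => C.2.2 v hC.1 D hDC h⟩
      have hpD : kap G v p D = 1 := by rw [← kap_four hG hq hpf hp4 hDf, hDu]
      obtain ⟨E, ⟨hE, hvE, hpE, hDE⟩, -⟩ := existsUnique_point hG hpf hDf hpD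
      have hqE : q ∈ E := by
        by_contra hqE
        have h6 := point_nbrs hG hE hqE
        obtain ⟨c, hc⟩ := card_pos.1 (by omega : 0 < ((E ∩ G.neighborFinset q)).card)
        rw [mem_inter, SimpleGraph.mem_neighborFinset] at hc
        have hcv : c ≠ v := fun e => (mem_far.1 hq).2 (e ▸ hc.2).symm
        have hcf : c ∈ srgFar G v := mem_far.2 ⟨hcv, fun h => hE.2 v hvE c hc.1 h⟩
        exact point_kap hG hE hvE hpE hc.1 (mem_far.1 hpf).1 hcv
          (by rw [← kap_four hG hq hpf hp4 hcf, kap_adj v hc.2])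
      have := (existsUnique_point hG hq hDf hDu).unique ⟨hE, hvE, hqE, hDE⟩ ⟨C.2, hC.1, hC.2, hDC⟩
      exact hpC (this ▸ hpE)
    rw [e, card_sdiff_of_subset hcls, card_erase_of_mem hC.1, C.2.1, card_cls hG hq]
  have huni : ∀ X ∈ U, ((ptsAt G v ∩ ptsAt G q).filter fun C => X ∈ C.1).card = 1 := by
    intro X hX
    obtain ⟨hXf, h1⟩ := mem_filter.1 hX
    obtain ⟨C, ⟨hC, hv, hqC, hXC⟩, hu⟩ := existsUnique_point hG hq hXf h1
    rw [card_eq_one]
    refine ⟨⟨C, hC⟩, ?_⟩
    ext D
    simp only [ptsAt, mem_filter, mem_inter, mem_univ, true_and, mem_singleton]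
    constructor
    · rintro ⟨⟨h1, h2⟩, h3⟩
      exact Subtype.ext (hu D.1 ⟨D.2, h1, h2, h3⟩)
    · rintro rfl
      exact ⟨⟨hv, hqC⟩, hXC⟩
  have h := sum_card_bipartiteAbove_eq_sum_card_bipartiteBelow
    (r := fun (C : Pt G) (X : V) => X ∈ C.1) (s := ptsAt G v ∩ ptsAt G q) (t := U)
  simp only [bipartiteAbove, bipartiteBelow] at h
  rw [sum_congr rfl hfib, sum_congr rfl huni, sum_const, sum_const, hU, smul_eq_mul,
    smul_eq_mul] at h
  omega

theorem card_ptsAt (hG : G.IsSRGWith 77 16 0 4) (v : V) : (ptsAt G v).card = 6 := by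
  have h := sum_card_bipartiteAbove_eq_sum_card_bipartiteBelow
    (r := fun (C : Pt G) (q : V) => q ∈ C.1) (s := ptsAt G v) (t := srgFar G v)
  simp only [bipartiteAbove, bipartiteBelow] at h
  have h1 : ∀ C ∈ ptsAt G v, ((srgFar G v).filter fun q => q ∈ C.1).card = 20 := by
    intro C hC
    have hv : v ∈ C.1 := (mem_filter.1 hC).2
    have : (srgFar G v).filter (fun q => q ∈ C.1) = C.1.erase v := by
      ext q
      simp only [mem_filter, mem_far, mem_erase]
      exact ⟨fun h => ⟨h.1.1, h.2⟩, fun h => ⟨⟨h.1, fun ha => C.2.2 v hv q h.2 ha⟩, h.2⟩⟩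
    rw [this, card_erase_of_mem hv, C.2.1]
  have h2 : ∀ q ∈ srgFar G v, ((ptsAt G v).filter fun C => q ∈ C.1).card = 2 := fun q hq => by
    rw [← card_ptsAt_inter hG hq]
    congr 1
    ext C
    simp [ptsAt]
  rw [sum_congr rfl h1, sum_congr rfl h2, sum_const, sum_const, card_far hG, smul_eq_mul,
    smul_eq_mul] at h
  omega

theorem card_pt (hG : G.IsSRGWith 77 16 0 4) : Fintype.card (Pt G) = 22 := by
  have h := sum_card_bipartiteAbove_eq_sum_card_bipartiteBelow
    (r := fun (C : Pt G) (q : V) => q ∈ C.1) (s := univ) (t := univ)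
  simp only [bipartiteAbove, bipartiteBelow] at h
  have h1 : ∀ C : Pt G, ((univ : Finset V).filter fun q => q ∈ C.1).card = 21 := fun C => by
    rw [filter_univ_mem, C.2.1]
  have h2 : ∀ q : V, ((univ : Finset (Pt G)).filter fun C => q ∈ C.1).card = 6 := fun q =>
    card_ptsAt hG q
  rw [sum_congr rfl fun C _ => h1 C, sum_congr rfl fun q _ => h2 q, sum_const, sum_const, card_univ,
    card_univ, hG.card, smul_eq_mul, smul_eq_mul] at h
  omega

theorem ptsAt_inter (hG : G.IsSRGWith 77 16 0 4) {v w : V} (hne : v ≠ w) :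
    (ptsAt G v ∩ ptsAt G w).card = if G.Adj v w then 0 else 2 := by
  split
  next h =>
    rw [card_eq_zero, eq_empty_iff_forall_notMem]
    intro C hC
    simp only [ptsAt, mem_inter, mem_filter] at hC
    exact C.2.2 v hC.1.2 w hC.2.2 h
  next h => exact card_ptsAt_inter hG (mem_far.2 ⟨hne.symm, h⟩)

theorem exists_iso_blockGraph (hG : G.IsSRGWith 77 16 0 4) :
    ∃ B : Set (Finset (Pt G)), Cfsg.IsSteinerSystem 3 6 B ∧ Nonempty (G ≃g Cfsg.blockGraph B) := by
  let B : Set (Finset (Pt G)) := Set.range (ptsAt G)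
  have hinj : Function.Injective (ptsAt G) := by
    intro v w e
    by_contra hne
    have h := ptsAt_inter hG hne
    rw [e, inter_self, card_ptsAt hG] at h
    split at h <;> omega
  have hdisj : ((univ : Finset V) : Set V).PairwiseDisjoint
      fun v => (ptsAt G v).powersetCard 3 := by
    intro v _ w _ hne
    simp only [Function.onFun, disjoint_left, mem_powersetCard]
    intro t ht ht'
    have h := card_le_card (subset_inter ht.1 ht'.1)
    rw [ptsAt_inter hG hne, ht.2] at h
    split at h <;> omega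
  have hcov : (univ : Finset V).biUnion (fun v => (ptsAt G v).powersetCard 3) =
      (univ : Finset (Pt G)).powersetCard 3 := by
    refine eq_of_subset_of_card_le ?_ ?_
    · intro t ht
      obtain ⟨v, -, ht⟩ := mem_biUnion.1 ht
      exact mem_powersetCard.2 ⟨subset_univ _, (mem_powersetCard.1 ht).2⟩
    · rw [card_powersetCard, card_univ, card_pt hG, card_biUnion hdisj,
        sum_congr rfl fun v _ => by rw [card_powersetCard, card_ptsAt hG], sum_const, card_univ,
        hG.card]
      decide
  refine ⟨B, ⟨by rintro b ⟨v, rfl⟩; exact card_ptsAt hG v, fun s hs => ?_⟩, ?_⟩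
  · have hs' : s ∈ (univ : Finset (Pt G)).powersetCard 3 :=
      mem_powersetCard.2 ⟨subset_univ _, hs⟩
    rw [← hcov] at hs'
    obtain ⟨v, hv, hsv⟩ := mem_biUnion.1 hs'
    refine ⟨ptsAt G v, ⟨⟨v, rfl⟩, (mem_powersetCard.1 hsv).1⟩, ?_⟩
    rintro _ ⟨⟨w, rfl⟩, hsw⟩
    by_contra hne
    exact disjoint_left.1 (hdisj hv (mem_univ w) fun e => hne (e ▸ rfl)) hsv
      (mem_powersetCard.2 ⟨hsw, hs⟩)
  · refine ⟨⟨Equiv.ofInjective (ptsAt G) hinj, fun {v w} => ?_⟩⟩
    rw [Cfsg.blockGraph, SimpleGraph.fromRel_adj]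
    show (_ ≠ _ ∧ (Disjoint (ptsAt G v) (ptsAt G w) ∨ Disjoint (ptsAt G w) (ptsAt G v))) ↔ _
    by_cases hne : v = w
    · subst hne; simp
    have h := ptsAt_inter hG hne
    constructor
    · rintro ⟨-, hd⟩
      by_contra ha
      rw [if_neg ha, disjoint_iff_inter_eq_empty.1 (hd.elim id fun h => h.symm), card_empty] at h
      omega
    · intro ha
      rw [if_pos ha] at h
      exact ⟨fun e => hne (hinj (congrArg Subtype.val e)),
        Or.inl (disjoint_iff_inter_eq_empty.2 (card_eq_zero.1 h))⟩

/-- The standard graph on `Fin 77`. -/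
def std77 : SimpleGraph (Fin 77) := SimpleGraph.fromRel fun i j => blockAdj77 i.1 j.1 = true

theorem exists_iso_std (hG : G.IsSRGWith 77 16 0 4) : Nonempty (std77 ≃g G) := by
  obtain ⟨B, hB, ⟨f⟩⟩ := exists_iso_blockGraph hG
  obtain ⟨e, φ, -, hφ⟩ := exists_blockEquiv (card_pt hG) hB
  refine ⟨SimpleGraph.Iso.comp f.symm ⟨φ, fun {i j} => ?_⟩⟩
  rw [blockGraph_adj_index hφ, std77, SimpleGraph.fromRel_adj]
  simp only [blockAdj77, Bool.and_eq_true, decide_eq_true_eq, beq_iff_eq, ne_eq, Fin.ext_iff,
    Nat.land_comm (blk22 j.1)]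
  tauto

end CfsgLib.Mathieu.SRG77

namespace CfsgLib.Mathieu

theorem srg77_unique {V W : Type*} [Fintype V] [Fintype W] {G : SimpleGraph V} {H : SimpleGraph W}
    [DecidableRel G.Adj] [DecidableRel H.Adj] (hG : G.IsSRGWith 77 16 0 4)
    (hH : H.IsSRGWith 77 16 0 4) : Nonempty (G ≃g H) := by
  classical
  obtain ⟨f⟩ := SRG77.exists_iso_std (G := G) (by convert hG)
  obtain ⟨g⟩ := SRG77.exists_iso_std (G := H) (by convert hH)
  exact ⟨f.symm.trans g⟩

end CfsgLib.Mathieu
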